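import Cfsg.Agent.Lib.Helper95.AutO.Perm
import Cfsg.Agent.Lib.Helper74.AutOSemiB
import Cfsg.Agent.Lib.Helper49.Perp2

set_option autoImplicit false

namespace Cfsg.Agent.Lib.Helper74.AutO

open QuadraticMap Module Cfsg.Agent.Lib.Helper49 Cfsg.Agent.Lib.Helper95 Cfsg.Agent.Lib.Helper95.AutO

variable {F V : Type*} [Field F] [Fintype F] [AddCommGroup V] [Module F V] [FiniteDimensional F V]
  {Q : QuadraticForm F V}

/-- RUNG CARD2 -/
theorem card_img_QS_inf_le (hQ : (polarBilin Q).Nondegenerate) (hd : 7 ≤ finrank F V)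
    {e e' : V} (he0 : e ≠ 0) (he : Q e = 0) (hne : ∀ c : F, e' ≠ c • e) :
    Nat.card ↥(img Q (QS Q e) ⊓ img Q (QS Q e')) ≤ Fintype.card F := by
  have key : ∀ t : ↥(img Q (QS Q e) ⊓ img Q (QS Q e')), ∃ c : F, t.1 = sb hQ hd e (c • e') := by
    intro t
    rcases mem_img_QS_inf hQ hd he he0 hne t.2.1 t.2.2 with h | ⟨-, c, hc⟩
    · refine ⟨0, ?_⟩
      rw [h, eq_comm, sb_eq_one_iff hQ hd he he0 (by simp)]
      exact ⟨0, by simp⟩
    · exact ⟨c, hc⟩
  choose ι hι using key
  have hinj : Function.Injective ι := by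
    intro t t' h
    apply Subtype.ext
    rw [hι t, hι t', h]
  have := Nat.card_le_card_of_injective ι hinj
  rwa [Nat.card_eq_fintype_card (α := F)] at this

/-- RUNG CARD1 -/
theorem two_lt_card_img_QW (hQ : (polarBilin Q).Nondegenerate) (hd : 7 ≤ finrank F V)
    (W : Submodule F V) (hW0 : W ≠ ⊥) (hW : ∀ x ∈ W, Q x = 0) :
    2 < Nat.card (img Q (QW Q W)) := by
  have hpol : ∀ x ∈ W, ∀ y ∈ W, polar Q x y = 0 := by
    intro x hx y hy
    rw [polar, hW _ (W.add_mem hx hy), hW x hx, hW y hy]; simp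
  obtain ⟨u, hu, hu0⟩ := (Submodule.ne_bot_iff W).1 hW0
  set O := LinearMap.BilinForm.orthogonal (polarBilin Q) W with hO
  have h1 := LinearMap.BilinForm.finrank_orthogonal hQ W
  rw [← hO] at h1
  have hmemO : ∀ x, x ∈ O ↔ ∀ w ∈ W, polar Q w x = 0 := by
    intro x
    rfl
  have hWO : W ≤ O := fun x hx => (hmemO x).2 (fun w hw => hpol w hw x hx)
  have h2 := Submodule.finrank_mono hWO
  have h3 := Submodule.finrank_le W
  have hO4 : 4 ≤ finrank F O := by omega
  -- first vector
  have hS1 : Submodule.span F {u} < O := by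
    refine lt_of_le_of_ne ?_ ?_
    · rw [Submodule.span_singleton_le_iff_mem]; exact hWO hu
    · intro h
      have := finrank_span_singleton (K := F) hu0
      rw [h] at this
      omega
  obtain ⟨w1, hw1, hw1n⟩ := SetLike.exists_of_lt hS1
  have hS2 : Submodule.span F {u, w1} < O := by
    refine lt_of_le_of_ne ?_ ?_
    · rw [Submodule.span_le]
      rintro x (rfl | rfl)
      · exact hWO hu
      · exact hw1
    · intro h
      classical
      have := finrank_span_finset_le_card (R := F) ({u, w1} : Finset V)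
      have h5 : (({u, w1} : Finset V) : Set V) = {u, w1} := by simp
      rw [Set.finrank, h5, h] at this
      have h6 : ({u, w1} : Finset V).card ≤ 2 := Finset.card_le_two
      omega
  obtain ⟨w2, hw2, hw2n⟩ := SetLike.exists_of_lt hS2
  have hQu := hW u hu
  have hcomb : ∀ a b : F, ∀ x ∈ W, polar Q x (a • w1 + b • w2) = 0 := by
    intro a b x hx
    rw [polar_add_right, polar_smul_right, polar_smul_right, (hmemO w1).1 hw1 x hx,
      (hmemO w2).1 hw2 x hx]
    simp
  let ι : F × F → ↥(img Q (QW Q W)) := fun ab =>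
    ⟨sb hQ hd u (ab.1 • w1 + ab.2 • w2), pr_mem_img (si_mem_QW hW hu (hcomb _ _))⟩
  have hinj : Function.Injective ι := by
    rintro ⟨a, b⟩ ⟨a', b'⟩ hab
    have h3 := congrArg Subtype.val hab
    change sb hQ hd u (a • w1 + b • w2) = sb hQ hd u (a' • w1 + b' • w2) at h3
    obtain ⟨c, hc⟩ := (sb_eq_sb_iff hQ hd hQu hu0 (hcomb a b u hu) (hcomb a' b' u hu)).1 h3
    have hb : b = b' := by
      by_contra hbb
      have hbb' : b - b' ≠ 0 := sub_ne_zero.2 hbb
      apply hw2n
      rw [Submodule.mem_span_pair]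
      refine ⟨(b - b')⁻¹ * c, (b - b')⁻¹ * (a' - a), ?_⟩
      have h7 : (b - b') • w2 = c • u + (a' - a) • w1 := by
        have : (b - b') • w2 = (a • w1 + b • w2) - a • w1 - b' • w2 := by module
        rw [this, hc]; module
      rw [mul_smul, mul_smul, ← smul_add, ← h7, smul_smul, inv_mul_cancel₀ hbb', one_smul]
    subst hb
    have ha : a = a' := by
      by_contra haa
      have haa' : a - a' ≠ 0 := sub_ne_zero.2 haa
      apply hw1n
      rw [Submodule.mem_span_singleton]
      refine ⟨(a - a')⁻¹ * c, ?_⟩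
      have h7 : (a - a') • w1 = c • u := by
        have : (a - a') • w1 = (a • w1 + b • w2) - a' • w1 - b • w2 := by module
        rw [this, hc]; module
      rw [mul_smul, ← h7, smul_smul, inv_mul_cancel₀ haa', one_smul]
    rw [ha]
  have : Finite V := Module.finite_of_finite F
  have : Finite (V ≃ₗ[F] V) := Finite.of_injective (fun g => (g : V → V)) DFunLike.coe_injective
  have hle := Nat.card_le_card_of_injective ι hinj
  rw [Nat.card_prod, Nat.card_eq_fintype_card] at hle
  have hq : 1 < Fintype.card F := Fintype.one_lt_card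
  calc 2 < Fintype.card F * Fintype.card F := by nlinarith
    _ ≤ _ := hle

end Cfsg.Agent.Lib.Helper74.AutO
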