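import Cfsg.Agent.Lib.Helper74.NormTrick2

set_option autoImplicit false

namespace Cfsg.Agent.Lib.Helper74

open Finset

theorem conj_pow_mem {Γ : Type*} [Group Γ] (X : Subgroup Γ) (t : Γ)
    (htX : ∀ y ∈ X, t * y * t⁻¹ ∈ X) (i : ℕ) : ∀ y ∈ X, t ^ i * y * (t ^ i)⁻¹ ∈ X := by
  induction i with
  | zero => intro y hy; simpa using hy
  | succ i ih =>
    intro y hy
    have h1 := htX _ (ih y hy)
    have h2 : t ^ (i + 1) * y * (t ^ (i + 1))⁻¹ = t * (t ^ i * y * (t ^ i)⁻¹) * t⁻¹ := by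
      rw [pow_succ']; group
    rw [h2]; exact h1

theorem mem_normalizer_of_pow_eq_one {Γ : Type*} [Group Γ] (X : Subgroup Γ) (t : Γ) (n : ℕ)
    (hn : t ^ (n + 1) = 1) (htX : ∀ y ∈ X, t * y * t⁻¹ ∈ X) :
    t ∈ Subgroup.normalizer (X : Set Γ) := by
  rw [Subgroup.mem_normalizer_iff]
  intro h
  refine ⟨htX h, fun hh => ?_⟩
  have h1 := conj_pow_mem X t htX n _ hh
  have h2 : t ^ n * (t * h * t⁻¹) * (t ^ n)⁻¹ = t ^ (n + 1) * h * (t ^ (n + 1))⁻¹ := by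
    rw [pow_succ]; group
  rw [h2, hn] at h1
  simpa using h1

/-- A finite group with a fixed-point-free automorphism of `2`-power order has odd order. -/
theorem odd_card_of_fpf_aut {X : Type*} [Group X] [Finite X] (σ : MulAut X) (k : ℕ)
    (hσ : σ ^ (2 ^ k) = 1) (hfpf : ∀ x, σ x = x → x = 1) : Odd (Nat.card X) := by
  have hP : IsPGroup 2 (Subgroup.zpowers σ) := by
    rintro ⟨g, hg⟩
    refine ⟨k, ?_⟩
    obtain ⟨i, rfl⟩ := Subgroup.mem_zpowers_iff.1 hg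
    apply Subtype.ext
    change (σ ^ i) ^ (2 ^ k) = 1
    rw [← zpow_natCast, ← zpow_mul, mul_comm, zpow_mul, zpow_natCast, hσ, one_zpow]
  have h1 := hP.card_modEq_card_fixedPoints X
  have h2 : Nat.card (MulAction.fixedPoints (Subgroup.zpowers σ) X) = 1 := by
    rw [Nat.card_eq_one_iff_unique]
    refine ⟨⟨?_⟩, ⟨⟨1, ?_⟩⟩⟩
    · rintro ⟨a, ha⟩ ⟨b, hb⟩
      have ha1 : σ a = a := ha ⟨σ, Subgroup.mem_zpowers σ⟩
      have hb1 : σ b = b := hb ⟨σ, Subgroup.mem_zpowers σ⟩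
      apply Subtype.ext
      change a = b
      rw [hfpf a ha1, hfpf b hb1]
    · rintro ⟨g, hg⟩
      change g 1 = 1
      exact map_one g
  rw [h2] at h1
  rw [Nat.odd_iff]
  exact h1

theorem odd_card_of_fpf {Γ : Type*} [Group Γ] (X : Subgroup Γ) [Finite X] (t : Γ) (k : ℕ)
    (ht : t ^ (2 ^ k) = 1) (htX : ∀ y ∈ X, t * y * t⁻¹ ∈ X)
    (hfpf : ∀ y ∈ X, t * y = y * t → y = 1) : Odd (Nat.card X) := by
  have hn : t ∈ Subgroup.normalizer (X : Set Γ) :=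
    mem_normalizer_of_pow_eq_one X t (2 ^ k - 1)
      (by rw [Nat.sub_add_cancel Nat.one_le_two_pow]; exact ht) htX
  refine odd_card_of_fpf_aut (X.normalizerMonoidHom ⟨t, hn⟩) k ?_ ?_
  · rw [← map_pow]
    have : (⟨t, hn⟩ : Subgroup.normalizer (X : Set Γ)) ^ (2 ^ k) = 1 :=
      Subtype.ext (by simpa using ht)
    rw [this, map_one]
  · intro x hx
    have h1 : t * x * t⁻¹ = x := congrArg Subtype.val hx
    exact Subtype.ext (hfpf x x.2 (mul_inv_eq_iff_eq_mul.1 h1))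

/-- Fixed-point-freeness passes to quotients. -/
theorem mem_of_comm_mem {Γ : Type*} [Group Γ] (X N : Subgroup Γ) [Finite N] (hNX : N ≤ X) (t : Γ)
    (htN : ∀ y ∈ N, t * y * t⁻¹ ∈ N) (hfpf : ∀ y ∈ X, t * y = y * t → y = 1) (c : Γ) (hc : c ∈ X)
    (h : c⁻¹ * t * c * t⁻¹ ∈ N) : c ∈ N := by
  obtain ⟨u, hu, hut⟩ := exists_conj_eq_mul N t htN (fun y hy => hfpf y (hNX hy)) _ h
  have h1 : t * (c * u) = (c * u) * t := by
    have h2 : u * t * u⁻¹ = c⁻¹ * t * c := by rw [hut]; group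
    calc t * (c * u) = c * (c⁻¹ * t * c) * u := by group
      _ = c * (u * t * u⁻¹) * u := by rw [h2]
      _ = (c * u) * t := by group
  have h2 := hfpf (c * u) (X.mul_mem hc (hNX hu)) h1
  have h3 : c = u⁻¹ := eq_inv_of_mul_eq_one_left h2
  rw [h3]
  exact N.inv_mem hu

theorem inverts_of_sq_comm {Γ : Type*} [Group Γ] (N : Subgroup Γ) [Finite N] (t : Γ)
    (htN : ∀ y ∈ N, t * y * t⁻¹ ∈ N) (hfpf : ∀ y ∈ N, t * y = y * t → y = 1)
    (hsq : ∀ y ∈ N, t ^ 2 * y = y * t ^ 2) : ∀ n ∈ N, t * n * t⁻¹ = n⁻¹ := by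
  intro n hn
  obtain ⟨u, hu, hut⟩ := exists_conj_eq_mul N t htN hfpf n hn
  have h1 : n = u * t * u⁻¹ * t⁻¹ := by rw [hut]; group
  have h2 : t ^ 2 * u⁻¹ = u⁻¹ * t ^ 2 := hsq _ (N.inv_mem hu)
  rw [h1]
  calc t * (u * t * u⁻¹ * t⁻¹) * t⁻¹ = t * u * t⁻¹ * (t ^ 2 * u⁻¹) * (t ^ 2)⁻¹ := by group
    _ = t * u * t⁻¹ * (u⁻¹ * t ^ 2) * (t ^ 2)⁻¹ := by rw [h2]
    _ = (u * t * u⁻¹ * t⁻¹)⁻¹ := by group

theorem comm_of_inverts {Γ : Type*} [Group Γ] (N : Subgroup Γ) (t : Γ)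
    (h : ∀ n ∈ N, t * n * t⁻¹ = n⁻¹) : ∀ a ∈ N, ∀ b ∈ N, a * b = b * a := by
  intro a ha b hb
  have h1 := h (a * b) (N.mul_mem ha hb)
  have h2 : t * (a * b) * t⁻¹ = (t * a * t⁻¹) * (t * b * t⁻¹) := by group
  rw [h2, h a ha, h b hb] at h1
  have h3 : (a⁻¹ * b⁻¹)⁻¹ = ((a * b)⁻¹)⁻¹ := by rw [h1]
  simpa using h3.symm

theorem mem_of_sq_mem_of_odd {Γ : Type*} [Group Γ] (H : Subgroup Γ) (u : Γ)
    (hodd : Odd (orderOf u)) (h : u ^ 2 ∈ H) : u ∈ H := by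
  obtain ⟨m, hm⟩ := exists_pow_eq_self_of_coprime (n := 2) (x := u) (Nat.coprime_two_left.2 hodd)
  rw [← hm]
  exact H.pow_mem h m

theorem odd_orderOf_of_mem {Γ : Type*} [Group Γ] (X : Subgroup Γ) (hX : Odd (Nat.card X)) (u : Γ)
    (hu : u ∈ X) : Odd (orderOf u) :=
  Odd.of_dvd_nat hX (Subgroup.orderOf_dvd_natCard X hu)

theorem card_lt_of_lt {Γ : Type*} [Group Γ] {D E : Subgroup Γ} [Finite E] (h : D < E) :
    Nat.card D < Nat.card E :=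
  Set.ncard_lt_ncard (SetLike.coe_ssubset_coe.2 h) (Set.toFinite _)

end Cfsg.Agent.Lib.Helper74
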