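import Cfsg.Agent.Lib.Helper74.Fpf4A

set_option autoImplicit false

namespace Cfsg.Agent.Lib.Helper74

open Finset

/-- The abelian case of Lemma A: an abelian group `X` acting on `V`, of order coprime to
`|V|`, inverted by `t ^ 2`, where `t` has order dividing `4` and is fixed-point-free on `V` and `X`,
acts trivially. -/
theorem fpf4_abelian {Γ V : Type*} [Group Γ] [CommGroup V] [Finite V] (ρ : Γ →* MulAut V)
    (t : Γ) (ht4 : t ^ 4 = 1)
    (htV : ∀ v, ρ t v = v → v = 1) (X : Subgroup Γ) [Finite X]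
    (htX : ∀ x ∈ X, t * x * t⁻¹ ∈ X) (hfpf : ∀ x ∈ X, t * x = x * t → x = 1)
    (hcop : (Nat.card X).Coprime (Nat.card V))
    (hab : ∀ a ∈ X, ∀ b ∈ X, a * b = b * a)
    (hinv : ∀ x ∈ X, t ^ 2 * x * (t ^ 2)⁻¹ = x⁻¹) : ∀ x ∈ X, ρ x = 1 := by
  have hodd : Odd (Nat.card X) := odd_card_of_fpf X t 2 (by simpa using ht4) htX hfpf
  -- every `y t` is conjugate to `t`
  have hconj : ∀ y ∈ X, ∃ u ∈ X, u * t * u⁻¹ = y * t := exists_conj_eq_mul X t htX hfpf
  have hpow4 : ∀ y ∈ X, (y * t) ^ 4 = 1 := by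
    intro y hy
    obtain ⟨u, -, hu⟩ := hconj y hy
    rw [← hu, conj_pow, ht4]; group
  have hfix : ∀ y ∈ X, ∀ v : V, ρ (y * t) v = v → v = 1 := by
    intro y hy v hv
    obtain ⟨u, -, hu⟩ := hconj y hy
    rw [← hu] at hv
    have h1 : ρ t (ρ u⁻¹ v) = ρ u⁻¹ v := by
      have h2 : ρ u⁻¹ (ρ (u * t * u⁻¹) v) = ρ u⁻¹ v := by rw [hv]
      rw [← MulAut.mul_apply, ← map_mul] at h2
      rw [← MulAut.mul_apply, ← map_mul]
      have h3 : u⁻¹ * (u * t * u⁻¹) = t * u⁻¹ := by group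
      rwa [h3] at h2
    have h3 := htV _ h1
    have h4 : ρ u (ρ u⁻¹ v) = ρ u 1 := by rw [h3]
    rw [← MulAut.mul_apply, ← map_mul, mul_inv_cancel, map_one, map_one] at h4
    simpa using h4
  have key := normTrick_gen ρ X t 4 (by norm_num) htX ?_ ?_
  · intro x hx
    ext v
    obtain ⟨m, hm⟩ := exists_pow_eq_self_of_coprime (n := Nat.card X) (x := v)
      (hcop.coprime_dvd_right (orderOf_dvd_natCard v))
    have h1 := key v x hx
    rw [MulAut.one_apply, ← hm, map_pow, h1]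
  · intro i hi0 hi4 y hy y' hy' hyy
    have hcases : i = 1 ∨ i = 2 ∨ i = 3 := by omega
    rcases hcases with rfl | rfl | rfl
    · simpa using hyy
    · -- `(y t)^2 = y (t y t⁻¹) t^2`
      have h1 : ∀ z : Γ, (z * t) ^ 2 = z * (t * z * t⁻¹) * t ^ 2 := by
        intro z; rw [pow_two, pow_two]; group
      rw [h1, h1] at hyy
      have h2 : y * (t * y * t⁻¹) = y' * (t * y' * t⁻¹) := mul_right_cancel hyy
      set z := y'⁻¹ * y with hz
      have hzX : z ∈ X := X.mul_mem (X.inv_mem hy') hy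
      have h3 : t * z * t⁻¹ = z⁻¹ := by
        have h4 : t * z * t⁻¹ = (t * y' * t⁻¹)⁻¹ * (t * y * t⁻¹) := by rw [hz]; group
        have h5 : t * y * t⁻¹ = y⁻¹ * (y' * (t * y' * t⁻¹)) := by rw [← h2]; group
        rw [h4, h5]
        have h6 := hab _ (htX y' hy') _ (X.mul_mem (X.inv_mem hy) hy')
        calc (t * y' * t⁻¹)⁻¹ * (y⁻¹ * (y' * (t * y' * t⁻¹)))
            = (t * y' * t⁻¹)⁻¹ * ((y⁻¹ * y') * (t * y' * t⁻¹)) := by group
          _ = (t * y' * t⁻¹)⁻¹ * ((t * y' * t⁻¹) * (y⁻¹ * y')) := by rw [h6]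
          _ = z⁻¹ := by rw [hz]; group
      have h7 : t ^ 2 * z * (t ^ 2)⁻¹ = z := by
        calc t ^ 2 * z * (t ^ 2)⁻¹ = t * (t * z * t⁻¹) * t⁻¹ := by rw [pow_two]; group
          _ = t * z⁻¹ * t⁻¹ := by rw [h3]
          _ = (t * z * t⁻¹)⁻¹ := by group
          _ = z := by rw [h3, inv_inv]
      rw [hinv z hzX] at h7
      have h8 : z ^ 2 = 1 := by
        rw [pow_two]
        nth_rewrite 1 [← h7]
        group
      have h9 : z ∈ (⊥ : Subgroup Γ) :=
        mem_of_sq_mem_of_odd ⊥ z (odd_orderOf_of_mem X hodd z hzX)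
          (by rw [h8]; exact Subgroup.one_mem _)
      rw [Subgroup.mem_bot] at h9
      exact (inv_mul_eq_one.1 h9).symm
    · have h1 : ∀ z ∈ X, (z * t) ^ 3 = (z * t)⁻¹ := by
        intro z hz
        have := hpow4 z hz
        rw [pow_succ] at this
        exact eq_inv_of_mul_eq_one_left this
      rw [h1 y hy, h1 y' hy'] at hyy
      exact mul_right_cancel (inv_injective hyy)
  · intro y hy w
    apply hfix y hy
    rw [map_prod]
    have h1 : ∀ i ∈ range 4, ρ (y * t) (ρ ((y * t) ^ i) w) = ρ ((y * t) ^ (i + 1)) w := by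
      intro i _
      have h2 : ρ ((y * t) ^ (i + 1)) = ρ (y * t) * ρ ((y * t) ^ i) := by rw [pow_succ', map_mul]
      rw [h2, MulAut.mul_apply]
    rw [prod_congr rfl h1]
    simp only [prod_range_succ, range_zero, prod_empty, one_mul, hpow4 y hy, pow_zero]
    simp only [zero_add, Nat.reduceAdd, mul_comm, mul_left_comm]

theorem comm_of_closure_pair {Γ : Type*} [Group Γ] (u u' : Γ) (h : u * u' = u' * u) :
    ∀ a ∈ Subgroup.closure ({u, u'} : Set Γ), ∀ b ∈ Subgroup.closure ({u, u'} : Set Γ),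
      a * b = b * a := by
  have h1 : Subgroup.closure ({u, u'} : Set Γ) ≤ Subgroup.centralizer ({u, u'} : Set Γ) := by
    rw [Subgroup.closure_le]
    rintro x (rfl | rfl)
    · rw [SetLike.mem_coe, Subgroup.mem_centralizer_iff]
      rintro y (rfl | rfl)
      · rfl
      · exact h.symm
    · rw [SetLike.mem_coe, Subgroup.mem_centralizer_iff]
      rintro y (rfl | rfl)
      · exact h
      · rfl
  have h2 : Subgroup.closure ({u, u'} : Set Γ)
      ≤ Subgroup.centralizer (Subgroup.closure ({u, u'} : Set Γ) : Set Γ) := by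
    rw [Subgroup.closure_le]
    intro x hx
    rw [SetLike.mem_coe, Subgroup.mem_centralizer_iff]
    intro y hy
    exact ((Subgroup.mem_centralizer_iff.1 (h1 hy)) x hx).symm
  intro a ha b hb
  exact (Subgroup.mem_centralizer_iff.1 (h2 hb)) a ha

theorem conj_mem_commutator {Γ : Type*} [Group Γ] (X : Subgroup Γ) (g : Γ)
    (h : ∀ x ∈ X, g * x * g⁻¹ ∈ X) : ∀ d ∈ ⁅X, X⁆, g * d * g⁻¹ ∈ ⁅X, X⁆ := by
  intro d hd
  have h1 : X.map (MulAut.conj g).toMonoidHom ≤ X := by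
    rintro _ ⟨x, hx, rfl⟩; exact h x hx
  have h2 : (⁅X, X⁆).map (MulAut.conj g).toMonoidHom ≤ ⁅X, X⁆ := by
    rw [Subgroup.map_commutator]; exact Subgroup.commutator_mono h1 h1
  exact h2 ⟨d, hd, rfl⟩

theorem commutator_self_le {Γ : Type*} [Group Γ] (X : Subgroup Γ) : ⁅X, X⁆ ≤ X :=
  Subgroup.commutator_le.2 (fun _ ha _ hb =>
    X.mul_mem (X.mul_mem (X.mul_mem ha hb) (X.inv_mem ha)) (X.inv_mem hb))

theorem map_subtype_commutator {Γ : Type*} [Group Γ] (X : Subgroup Γ) :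
    (commutator X).map X.subtype = ⁅X, X⁆ := by
  rw [commutator_def, Subgroup.map_commutator, ← MonoidHom.range_eq_map, X.range_subtype]

theorem commutator_self_ne {Γ : Type*} [Group Γ] (X : Subgroup Γ) (hX : X ≠ ⊥)
    (hsol : Group.IsSolvable X) : ⁅X, X⁆ ≠ X := by
  intro h
  have hnt : Nontrivial X := (Subgroup.nontrivial_iff_ne_bot X).2 hX
  have h1 := Group.IsSolvable.commutator_lt_top_of_nontrivial X
  apply h1.ne
  apply Subgroup.map_injective X.subtype_injective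
  rw [map_subtype_commutator, h, ← MonoidHom.range_eq_map, X.range_subtype]

/-- **Lemma A.** -/
theorem fpf4_lemmaA {Γ V : Type*} [Group Γ] [CommGroup V] [Finite V] (ρ : Γ →* MulAut V)
    (t : Γ) (ht4 : t ^ 4 = 1) (htV : ∀ v, ρ t v = v → v = 1) :
    ∀ (n : ℕ) (X : Subgroup Γ) [Finite X], Nat.card X = n →
      (∀ x ∈ X, t * x * t⁻¹ ∈ X) → (∀ x ∈ X, t * x = x * t → x = 1) → Group.IsSolvable X →
      (Nat.card X).Coprime (Nat.card V) → (∀ x ∈ X, ρ x = 1 → x = 1) →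
      ∀ x ∈ X, t ^ 2 * x = x * t ^ 2 := by
  intro n
  induction n using Nat.strong_induction_on with
  | _ n ih =>
  intro X _ hXn htX hfpf hsol hcop hinj
  by_contra hcon
  push Not at hcon
  obtain ⟨x0, hx0, hx0ne⟩ := hcon
  have hodd : Odd (Nat.card X) := odd_card_of_fpf X t 2 (by simpa using ht4) htX hfpf
  obtain ⟨τ, hτ⟩ : ∃ τ, τ = t ^ 2 := ⟨_, rfl⟩
  have hτ2 : τ * τ = 1 := by rw [hτ, ← pow_add]; exact ht4
  have hτt : τ = t * t := by rw [hτ, pow_two]
  have hτX : ∀ x ∈ X, τ * x * τ⁻¹ ∈ X := by rw [hτ]; exact conj_pow_mem X t htX 2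
  obtain ⟨u, hu⟩ : ∃ u, u = x0⁻¹ * (τ * x0 * τ⁻¹) := ⟨_, rfl⟩
  have huX : u ∈ X := by rw [hu]; exact X.mul_mem (X.inv_mem hx0) (hτX x0 hx0)
  have hu1 : u ≠ 1 := by
    intro h
    apply hx0ne
    rw [hu] at h
    have h2 : τ * x0 * τ⁻¹ = x0 := (inv_mul_eq_one.1 h).symm
    rw [← hτ]; exact mul_inv_eq_iff_eq_mul.1 h2
  have hτu : τ * u * τ⁻¹ = u⁻¹ := by
    rw [hu]
    calc τ * (x0⁻¹ * (τ * x0 * τ⁻¹)) * τ⁻¹
        = τ * x0⁻¹ * τ⁻¹ * ((τ * τ) * x0 * (τ * τ)⁻¹) := by group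
      _ = (x0⁻¹ * (τ * x0 * τ⁻¹))⁻¹ := by rw [hτ2]; group
  obtain ⟨u', hu'⟩ : ∃ u', u' = t * u * t⁻¹ := ⟨_, rfl⟩
  have hu'X : u' ∈ X := by rw [hu']; exact htX u huX
  have htu' : t * u' * t⁻¹ = u⁻¹ := by
    rw [← hτu, hu', hτt]; group
  have hτu' : τ * u' * τ⁻¹ = u'⁻¹ := by
    calc τ * u' * τ⁻¹ = t * (τ * u * τ⁻¹) * t⁻¹ := by rw [hu', hτt]; group
      _ = u'⁻¹ := by rw [hτu, hu']; group
  have hsq1 : ∀ w ∈ X, w ^ 2 = 1 → w = 1 := by
    intro w hw h3
    have h4 : w ∈ (⊥ : Subgroup Γ) := mem_of_sq_mem_of_odd ⊥ w (odd_orderOf_of_mem X hodd w hw)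
      (by rw [h3]; exact Subgroup.one_mem _)
    exact Subgroup.mem_bot.1 h4
  obtain ⟨Y, hY⟩ : ∃ Y, Y = Subgroup.closure ({u, u'} : Set Γ) := ⟨_, rfl⟩
  have huY : u ∈ Y := by rw [hY]; exact Subgroup.subset_closure (by simp)
  have hu'Y : u' ∈ Y := by rw [hY]; exact Subgroup.subset_closure (by simp)
  have hYX : Y ≤ X := by
    rw [hY, Subgroup.closure_le]
    rintro x (rfl | rfl)
    · exact huX
    · exact hu'X
  have htY : ∀ y ∈ Y, t * y * t⁻¹ ∈ Y := by
    intro y hy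
    rw [hY] at hy
    induction hy using Subgroup.closure_induction with
    | mem x hx =>
      rcases hx with rfl | rfl
      · rw [← hu']; exact hu'Y
      · rw [htu']; exact Y.inv_mem huY
    | one => simp
    | mul a b _ _ ha hb =>
      have : t * (a * b) * t⁻¹ = (t * a * t⁻¹) * (t * b * t⁻¹) := by group
      rw [this]; exact Y.mul_mem ha hb
    | inv a _ ha =>
      have : t * a⁻¹ * t⁻¹ = (t * a * t⁻¹)⁻¹ := by group
      rw [this]; exact Y.inv_mem ha
  have hYeq : Y = X := by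
    by_contra hne
    have hlt : Y < X := lt_of_le_of_ne hYX hne
    have : Finite Y := Finite.of_injective _ (Subgroup.inclusion_injective hYX)
    have hcard : Nat.card Y < n := hXn ▸ card_lt_of_lt hlt
    have h1 := ih _ hcard Y rfl htY (fun y hy => hfpf y (hYX hy))
      (Group.isSolvable_of_isSolvable_injective (Subgroup.inclusion_injective hYX))
      (hcop.coprime_dvd_left (Subgroup.card_dvd_of_le hYX)) (fun y hy => hinj y (hYX hy)) u huY
    rw [← hτ] at h1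
    have h2 : τ * u * τ⁻¹ = u := mul_inv_eq_iff_eq_mul.2 h1
    rw [hτu] at h2
    have h3 : u ^ 2 = 1 := by rw [pow_two]; nth_rewrite 1 [← h2]; group
    exact hu1 (hsq1 u huX h3)
  have hXne : X ≠ ⊥ := by
    intro h
    rw [h] at huX
    exact hu1 (Subgroup.mem_bot.1 huX)
  obtain ⟨D, hD⟩ : ∃ D : Subgroup Γ, D = ⁅X, X⁆ := ⟨_, rfl⟩
  have hDX : D ≤ X := by rw [hD]; exact commutator_self_le X
  have hDlt : D < X := lt_of_le_of_ne hDX (by rw [hD]; exact commutator_self_ne X hXne hsol)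
  have hτD : ∀ d ∈ D, τ * d = d * τ := by
    have : Finite D := Finite.of_injective _ (Subgroup.inclusion_injective hDX)
    have hcard : Nat.card D < n := hXn ▸ card_lt_of_lt hDlt
    have h1 := ih _ hcard D rfl (by rw [hD]; exact conj_mem_commutator X t htX)
      (fun y hy => hfpf y (hDX hy))
      (Group.isSolvable_of_isSolvable_injective (Subgroup.inclusion_injective hDX))
      (hcop.coprime_dvd_left (Subgroup.card_dvd_of_le hDX)) (fun y hy => hinj y (hDX hy))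
    rw [hτ]; exact h1
  have hcomm : ∀ w ∈ X, τ * w * τ⁻¹ = w⁻¹ → ∀ d ∈ D, d * w = w * d := by
    intro w hw hτw d hd
    have h1 : w * d * w⁻¹ ∈ D := by
      rw [hD] at hd ⊢
      exact conj_mem_commutator X w
        (fun x hx => X.mul_mem (X.mul_mem hw hx) (X.inv_mem hw)) d hd
    have h2 : τ * (w * d * w⁻¹) = (w * d * w⁻¹) * τ := hτD _ h1
    have h3 : τ * d = d * τ := hτD d hd
    have h4 : w⁻¹ * d * w = w * d * w⁻¹ := by
      calc w⁻¹ * d * w = (τ * w * τ⁻¹) * (τ * d * τ⁻¹) * (τ * w * τ⁻¹)⁻¹ := by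
            rw [hτw, mul_inv_eq_iff_eq_mul.2 h3]; group
        _ = τ * (w * d * w⁻¹) * τ⁻¹ := by group
        _ = w * d * w⁻¹ := mul_inv_eq_iff_eq_mul.2 h2
    have h5 : w ^ 2 ∈ Subgroup.centralizer ({d} : Set Γ) := by
      rw [Subgroup.mem_centralizer_iff]
      intro y hy
      rw [Set.mem_singleton_iff.1 hy]
      calc d * w ^ 2 = w * (w⁻¹ * d * w) * w := by rw [pow_two]; group
        _ = w * (w * d * w⁻¹) * w := by rw [h4]
        _ = w ^ 2 * d := by rw [pow_two]; group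
    have h6 := mem_of_sq_mem_of_odd _ w (odd_orderOf_of_mem X hodd w hw) h5
    exact (Subgroup.mem_centralizer_iff.1 h6) d rfl
  obtain ⟨c, hc⟩ : ∃ c, c = u * u' * u⁻¹ * u'⁻¹ := ⟨_, rfl⟩
  have hcD : c ∈ D := by
    rw [hc, hD, ← commutatorElement_def]
    exact Subgroup.commutator_mem_commutator huX hu'X
  have hcu : c * u = u * c := hcomm u huX hτu c hcD
  have htc : t * c * t⁻¹ = c := by
    calc t * c * t⁻¹ = (t * u * t⁻¹) * (t * u' * t⁻¹) * (t * u * t⁻¹)⁻¹ * (t * u' * t⁻¹)⁻¹ := by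
          rw [hc]; group
      _ = u' * u⁻¹ * u'⁻¹ * u := by rw [htu', ← hu']; group
      _ = u⁻¹ * (u * c) := by rw [← hcu, hc]; group
      _ = c := by group
  have hc1 : c = 1 := hfpf c (hDX hcD) (mul_inv_eq_iff_eq_mul.1 htc)
  have huu' : u * u' = u' * u := by
    rw [hc] at hc1
    have : u * u' = (u * u' * u⁻¹ * u'⁻¹) * (u' * u) := by group
    rw [this, hc1, one_mul]
  have hab : ∀ a ∈ X, ∀ b ∈ X, a * b = b * a := by
    rw [← hYeq, hY]
    exact comm_of_closure_pair u u' huu'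
  have hinv : ∀ x ∈ X, t ^ 2 * x * (t ^ 2)⁻¹ = x⁻¹ := by
    rw [← hτ, ← hYeq, hY]
    intro x hx
    induction hx using Subgroup.closure_induction with
    | mem x hx =>
      rcases hx with rfl | rfl
      · exact hτu
      · exact hτu'
    | one => simp
    | mul a b ha hb iha ihb =>
      have haX : a ∈ X := by rw [← hYeq, hY]; exact ha
      have hbX : b ∈ X := by rw [← hYeq, hY]; exact hb
      have : τ * (a * b) * τ⁻¹ = (τ * a * τ⁻¹) * (τ * b * τ⁻¹) := by group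
      rw [this, iha, ihb, hab a haX b hbX]; group
    | inv a ha iha =>
      have : τ * a⁻¹ * τ⁻¹ = (τ * a * τ⁻¹)⁻¹ := by group
      rw [this, iha]
  have hfin := fpf4_abelian ρ t ht4 htV X htX hfpf hcop hab hinv
  exact hu1 (hinj u huX (hfin u huX))

end Cfsg.Agent.Lib.Helper74
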