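import Cfsg.Agent.Lib.Helper74.Fpf4B

set_option autoImplicit false

namespace Cfsg.Agent.Lib.Helper74

/-- **Proposition B.** A finite group `Γ` acting faithfully and irreducibly on the elementary abelian
`r`-group `V`; `t ∈ Γ` with `t ^ 4 = 1` fixed-point-free on `V` and on the normal subgroup `M`, whose
derived subgroup is nilpotent.  Then `M` is abelian. -/
theorem fpf4_propB {Γ V : Type*} [Group Γ] [Finite Γ] [CommGroup V] [Finite V] (ρ : Γ →* MulAut V)
    (hρ : ∀ g, ρ g = 1 → g = 1) (r : ℕ) (hr : r.Prime) (hVr : ∀ v : V, v ^ r = 1)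
    (hV : Nontrivial V)
    (hirr : ∀ W : Subgroup V, (∀ g : Γ, ∀ w ∈ W, ρ g w ∈ W) → W = ⊥ ∨ W = ⊤)
    (t : Γ) (ht4 : t ^ 4 = 1) (htV : ∀ v, ρ t v = v → v = 1)
    (M : Subgroup Γ) (hMn : M.Normal) (hfpf : ∀ x ∈ M, t * x = x * t → x = 1)
    (hnil : Group.IsNilpotent ↥⁅M, M⁆) : ∀ a ∈ M, ∀ b ∈ M, a * b = b * a := by
  have : Fact r.Prime := ⟨hr⟩
  have hVp : IsPGroup r V := fun v => ⟨1, by rw [pow_one]; exact hVr v⟩
  obtain ⟨k, hk⟩ := IsPGroup.iff_card.1 hVp
  have hk0 : k ≠ 0 := by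
    rintro rfl
    have := Finite.one_lt_card (α := V)
    rw [hk] at this; simp at this
  have hrV : r ∣ Nat.card V := by rw [hk]; exact dvd_pow_self r hk0
  have hR : ∀ R : Subgroup Γ, R.Normal → IsPGroup r R → R = ⊥ := by
    intro R hRn hRp
    let W : Subgroup V :=
      { carrier := {v | ∀ g ∈ R, ρ g v = v}
        mul_mem' := fun {a b} ha hb g hg => by rw [map_mul, ha g hg, hb g hg]
        one_mem' := fun g _ => map_one _
        inv_mem' := fun {a} ha g hg => by rw [map_inv, ha g hg] }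
    have hWinv : ∀ g : Γ, ∀ w ∈ W, ρ g w ∈ W := by
      intro g w hw x hx
      have h1 : g⁻¹ * x * g ∈ R := by
        have := hRn.conj_mem x hx g⁻¹; simpa using this
      have h2 := hw _ h1
      calc ρ x (ρ g w) = ρ g (ρ (g⁻¹ * x * g) w) := by
            rw [← MulAut.mul_apply, ← MulAut.mul_apply, ← map_mul, ← map_mul]; congr 2; group
        _ = ρ g w := by rw [h2]
    have hWne : W ≠ ⊥ := by
      let _ : MulAction R V := MulAction.compHom V (ρ.comp R.subtype)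
      obtain ⟨b, hb, hb1⟩ := hRp.exists_fixed_point_of_prime_dvd_card_of_fixed_point V hrV
        (a := 1) (fun g => map_one (ρ g))
      intro h
      have hbW : b ∈ W := fun g hg => hb ⟨g, hg⟩
      rw [h, Subgroup.mem_bot] at hbW
      exact hb1 hbW.symm
    rcases hirr W hWinv with h | h
    · exact absurd h hWne
    · rw [eq_bot_iff]
      intro g hg
      rw [Subgroup.mem_bot]
      apply hρ
      ext v
      have : v ∈ W := by rw [h]; trivial
      exact this g hg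
  have hY : ∀ Y : Subgroup Γ, Y.Normal → Group.IsNilpotent Y →
      (Nat.card Y).Coprime (Nat.card V) := by
    intro Y hYn hYnil
    rw [hk]
    apply Nat.Coprime.pow_right
    rw [Nat.coprime_comm, Nat.Prime.coprime_iff_not_dvd hr]
    intro hdvd
    obtain ⟨P⟩ : Nonempty (Sylow r Y) := inferInstance
    have hPn : (P : Subgroup Y).Normal := inferInstance
    have hPc : (P : Subgroup Y).Characteristic := Sylow.characteristic_of_normal P hPn
    have hRn : ((P : Subgroup Y).map Y.subtype).Normal :=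
      ConjAct.normal_of_characteristic_of_normal
    have h1 := hR _ hRn (P.2.map _)
    exact P.ne_bot_of_dvd_card hdvd
      ((Subgroup.map_eq_bot_iff_of_injective _ Y.subtype_injective).1 h1)
  have htM : ∀ x ∈ M, t * x * t⁻¹ ∈ M := fun x hx => hMn.conj_mem x hx t
  have hDn : (⁅M, M⁆ : Subgroup Γ).Normal := inferInstance
  have hDM : ⁅M, M⁆ ≤ M := commutator_self_le M
  have htD : ∀ x ∈ ⁅M, M⁆, t * x * t⁻¹ ∈ ⁅M, M⁆ := fun x hx => hDn.conj_mem x hx t
  have hτD := fpf4_lemmaA ρ t ht4 htV _ ⁅M, M⁆ rfl htD (fun x hx => hfpf x (hDM hx))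
    inferInstance (hY _ hDn hnil) (fun x _ => hρ x)
  have hinvD := inverts_of_sq_comm ⁅M, M⁆ t htD (fun x hx => hfpf x (hDM hx)) hτD
  have hcent : ∀ m ∈ M, ∀ d ∈ ⁅M, M⁆, m * d = d * m := by
    intro n hn d hd
    obtain ⟨u, hu, hut⟩ := exists_conj_eq_mul M t htM hfpf n hn
    have hn' : n = u * (t * u⁻¹ * t⁻¹) := by
      have : n = (n * t) * t⁻¹ := by group
      rw [this, ← hut]; group
    have he : d⁻¹ ∈ ⁅M, M⁆ := Subgroup.inv_mem _ hd
    have h0 : u⁻¹ * d⁻¹ * u ∈ ⁅M, M⁆ := by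
      have := hDn.conj_mem _ he u⁻¹; simpa using this
    have h1 := hinvD _ h0
    have h2 := hinvD _ he
    have h3 : (t * u⁻¹ * t⁻¹) * d * (t * u⁻¹ * t⁻¹)⁻¹ = u⁻¹ * d * u := by
      calc (t * u⁻¹ * t⁻¹) * d * (t * u⁻¹ * t⁻¹)⁻¹
          = (t * u⁻¹ * t⁻¹) * (d⁻¹)⁻¹ * (t * u⁻¹ * t⁻¹)⁻¹ := by rw [inv_inv]
        _ = (t * u⁻¹ * t⁻¹) * (t * d⁻¹ * t⁻¹) * (t * u⁻¹ * t⁻¹)⁻¹ := by rw [h2]
        _ = t * (u⁻¹ * d⁻¹ * u) * t⁻¹ := by group
        _ = (u⁻¹ * d⁻¹ * u)⁻¹ := h1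
        _ = u⁻¹ * d * u := by group
    calc n * d = u * ((t * u⁻¹ * t⁻¹) * d * (t * u⁻¹ * t⁻¹)⁻¹) * (t * u⁻¹ * t⁻¹) := by
          rw [hn']; group
      _ = u * (u⁻¹ * d * u) * (t * u⁻¹ * t⁻¹) := by rw [h3]
      _ = d * n := by rw [hn']; group
  have hMnil : Group.IsNilpotent M := by
    apply Subgroup.isNilpotent_of_ker_le_center (Abelianization.of (G := M))
    rw [Abelianization.ker_of]
    intro x hx
    rw [Subgroup.mem_center_iff]
    intro y
    have hx' : (x : Γ) ∈ ⁅M, M⁆ := by rw [← map_subtype_commutator]; exact ⟨x, hx, rfl⟩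
    exact Subtype.ext (hcent y y.2 x hx')
  have hτM := fpf4_lemmaA ρ t ht4 htV _ M rfl htM hfpf inferInstance (hY M hMn hMnil)
    (fun x _ => hρ x)
  exact comm_of_inverts M t (inverts_of_sq_comm M t htM hfpf hτM)

end Cfsg.Agent.Lib.Helper74
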