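import Cfsg.Agent.Lib.Helper74.Fpf4C
import Cfsg.Agent.Lib.Helper74.NilAux

set_option autoImplicit false

namespace Cfsg.Agent.Lib.Helper74

/-- `s` has `4`-th power `1` and centralizes no nontrivial element of the normal subgroup `G`. -/
structure F4 {Γ : Type*} [Group Γ] (G : Subgroup Γ) (s : Γ) : Prop where
  normal : G.Normal
  pow : s ^ 4 = 1
  fpf : ∀ g ∈ G, s * g = g * s → g = 1

theorem F4.quotient {Γ : Type*} [Group Γ] {G : Subgroup Γ} {s : Γ} (h : F4 G s)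
    (N : Subgroup Γ) [hN : N.Normal] [Finite N] (hNG : N ≤ G) :
    F4 (G.map (QuotientGroup.mk' N)) (QuotientGroup.mk' N s) := by
  refine ⟨h.normal.map _ (QuotientGroup.mk'_surjective N), by rw [← map_pow, h.pow, map_one], ?_⟩
  rintro _ ⟨g, hg, rfl⟩ hcomm
  rw [← map_mul, ← map_mul] at hcomm
  have h1 : (g * s)⁻¹ * (s * g) ∈ N := QuotientGroup.eq.1 hcomm.symm
  have h2 : g⁻¹ * s * g * s⁻¹ ∈ N := by
    have := hN.conj_mem _ h1 s
    have e : s * ((g * s)⁻¹ * (s * g)) * s⁻¹ = g⁻¹ * s * g * s⁻¹ := by group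
    rwa [e] at this
  have h3 := mem_of_comm_mem G N hNG s (fun y hy => hN.conj_mem y hy s) h.fpf g hg h2
  exact (QuotientGroup.eq_one_iff g).2 h3

theorem F4.subgroupOf {Γ : Type*} [Group Γ] {G : Subgroup Γ} {s : Γ} (h : F4 G s)
    (Λ : Subgroup Γ) (hs : s ∈ Λ) : F4 (G.subgroupOf Λ) (⟨s, hs⟩ : Λ) := by
  refine ⟨h.normal.subgroupOf Λ, Subtype.ext (by simpa using h.pow), ?_⟩
  intro g hg hcomm
  apply Subtype.ext
  exact h.fpf g (Subgroup.mem_subgroupOf.1 hg) (congrArg Subtype.val hcomm)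

theorem F4.conj {Γ : Type*} [Group Γ] {G : Subgroup Γ} {s : Γ} (h : F4 G s) (u : Γ) :
    F4 G (u * s * u⁻¹) := by
  refine ⟨h.normal, by rw [conj_pow, h.pow]; group, ?_⟩
  intro g hg hcomm
  have h1 : u⁻¹ * g * u ∈ G := by
    have := h.normal.conj_mem g hg u⁻¹; simpa using this
  have h2 : s * (u⁻¹ * g * u) = (u⁻¹ * g * u) * s := by
    calc s * (u⁻¹ * g * u) = u⁻¹ * ((u * s * u⁻¹) * g) * u := by group
      _ = u⁻¹ * (g * (u * s * u⁻¹)) * u := by rw [hcomm]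
      _ = (u⁻¹ * g * u) * s := by group
  have h3 := h.fpf _ h1 h2
  have : g = u * (u⁻¹ * g * u) * u⁻¹ := by group
  rw [this, h3]; group

theorem exists_minimal_normal_le {Γ : Type*} [Group Γ] [Finite Γ] (G : Subgroup Γ) [G.Normal]
    (hG : G ≠ ⊥) (hsol : Group.IsSolvable G) :
    ∃ (r : ℕ) (V : Subgroup Γ), r.Prime ∧ V.Normal ∧ V ≠ ⊥ ∧ V ≤ G ∧
      (∀ x ∈ V, ∀ y ∈ V, x * y = y * x) ∧ (∀ x ∈ V, x ^ r = 1) ∧
      ∀ W : Subgroup Γ, W.Normal → W ≤ V → W = ⊥ ∨ W = V := by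
  obtain ⟨r, N, hr, hNn, hNne, hNG, hNab, hNr⟩ := exists_normal_elemAbelian_le G hG hsol
  obtain ⟨V, ⟨hVn, hVne, hVN⟩, hmin⟩ := exists_minimal_of_wellFoundedLT
    (fun W : Subgroup Γ => W.Normal ∧ W ≠ ⊥ ∧ W ≤ N) ⟨N, hNn, hNne, le_rfl⟩
  refine ⟨r, V, hr, hVn, hVne, hVN.trans hNG, fun x hx y hy => hNab x (hVN hx) y (hVN hy),
    fun x hx => hNr x (hVN hx), ?_⟩
  intro W hWn hWV
  by_cases hW : W = ⊥
  · exact Or.inl hW
  · exact Or.inr (le_antisymm hWV (hmin ⟨hWn, hW, hWV.trans hVN⟩ hWV))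

theorem exists_sylow_frattini {Γ : Type*} [Group Γ] [Finite Γ] (V K : Subgroup Γ) [V.Normal]
    [hKn : K.Normal]
    (hnil : Group.IsNilpotent ↥(K.map (QuotientGroup.mk' V))) (q : ℕ) [Fact q.Prime]
    (hq : q ∣ Nat.card ↥(K.map (QuotientGroup.mk' V))) :
    ∃ Q : Subgroup Γ, IsPGroup q Q ∧ ¬ Q ≤ V ∧ Q ≤ K ⊔ V ∧
      Subgroup.normalizer (Q : Set Γ) ⊔ V = ⊤ := by
  obtain ⟨π, hπ⟩ : ∃ π : Γ →* Γ ⧸ V, π = QuotientGroup.mk' V := ⟨_, rfl⟩
  rw [← hπ] at hnil hq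
  have hπs : Function.Surjective π := by rw [hπ]; exact QuotientGroup.mk'_surjective V
  have hπe : ∀ a b : Γ, π a = π b → a⁻¹ * b ∈ V := by
    intro a b hab; rw [hπ] at hab; exact QuotientGroup.eq.1 hab
  have hπ1 : ∀ a ∈ V, π a = 1 := by
    intro a ha; rw [hπ]; exact (QuotientGroup.eq_one_iff a).2 ha
  have hKbn : (K.map π).Normal := hKn.map π hπs
  obtain ⟨Pq⟩ : Nonempty (Sylow q ↥(K.map π)) := inferInstance
  have hPn : (Pq : Subgroup ↥(K.map π)).Normal := inferInstance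
  have hPc : (Pq : Subgroup ↥(K.map π)).Characteristic := Sylow.characteristic_of_normal Pq hPn
  obtain ⟨Qb, hQb⟩ : ∃ Qb : Subgroup (Γ ⧸ V), Qb = (Pq : Subgroup _).map (K.map π).subtype :=
    ⟨_, rfl⟩
  have hQbn : Qb.Normal := by rw [hQb]; exact ConjAct.normal_of_characteristic_of_normal
  have hQbp : IsPGroup q Qb := by rw [hQb]; exact Pq.2.map _
  have hQbne : Qb ≠ ⊥ := by
    rw [hQb]
    exact fun hc => Pq.ne_bot_of_dvd_card hq
      ((Subgroup.map_eq_bot_iff_of_injective _ (Subgroup.subtype_injective _)).1 hc)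
  have hQbK : Qb ≤ K.map π := by rw [hQb]; rintro _ ⟨x, _, rfl⟩; exact x.2
  obtain ⟨B, hB⟩ : ∃ B : Subgroup Γ, B = Qb.comap π := ⟨_, rfl⟩
  have hBn : B.Normal := by rw [hB]; infer_instance
  obtain ⟨Bq⟩ : Nonempty (Sylow q B) := inferInstance
  obtain ⟨Q, hQ⟩ : ∃ Q : Subgroup Γ, Q = (Bq : Subgroup B).map B.subtype := ⟨_, rfl⟩
  have hfrat : Subgroup.normalizer (Q : Set Γ) ⊔ B = ⊤ := by
    rw [hQ]; exact Sylow.normalizer_sup_eq_top Bq
  have hBQV : B ≤ Q ⊔ V := by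
    subst hB
    let φ : ↥(Qb.comap π) →* ↥Qb := π.subgroupComap Qb
    have hφ : Function.Surjective φ := π.subgroupComap_surjective_of_surjective Qb hπs
    have htop : ((Bq.mapSurjective hφ : Sylow q Qb) : Subgroup Qb) = ⊤ := by
      symm
      exact (Bq.mapSurjective hφ).is_maximal' (hQbp.to_subgroup ⊤) le_top
    intro b hb
    have h1 : φ ⟨b, hb⟩ ∈ ((Bq.mapSurjective hφ : Sylow q Qb) : Subgroup Qb) := by
      rw [htop]; trivial
    obtain ⟨y, hy, hyb⟩ := h1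
    have he : π (y : Γ) = π b := congrArg Subtype.val hyb
    have hv : (y : Γ)⁻¹ * b ∈ V := hπe _ _ he
    have : b = (y : Γ) * ((y : Γ)⁻¹ * b) := by group
    rw [this]
    exact Subgroup.mul_mem_sup (by rw [hQ]; exact ⟨y, hy, rfl⟩) hv
  refine ⟨Q, by rw [hQ]; exact Bq.2.map _, ?_, ?_, ?_⟩
  · intro hQV
    apply hQbne
    rw [eq_bot_iff]
    intro x hx
    obtain ⟨g, rfl⟩ := hπs x
    have hg : g ∈ B := by rw [hB]; exact hx
    have : g ∈ V := (sup_le hQV le_rfl) (hBQV hg)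
    rw [Subgroup.mem_bot]; exact hπ1 g this
  · rw [hQ]
    rintro _ ⟨y, _, rfl⟩
    have hy : (y : Γ) ∈ Qb.comap π := by rw [← hB]; exact y.2
    have h1 : π (y : Γ) ∈ K.map π := hQbK hy
    obtain ⟨k, hk, hky⟩ := h1
    have hv : k⁻¹ * (y : Γ) ∈ V := hπe _ _ hky
    have : B.subtype y = k * (k⁻¹ * y) := by simp
    rw [this]; exact Subgroup.mul_mem_sup hk hv
  · rw [eq_top_iff, ← hfrat]
    exact sup_le le_sup_left
      (hBQV.trans (sup_le (Subgroup.le_normalizer.trans le_sup_left) le_sup_right))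

end Cfsg.Agent.Lib.Helper74
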