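import Cfsg.Agent.Lib.Helper74.Fpf4D

set_option autoImplicit false

namespace Cfsg.Agent.Lib.Helper74

open scoped IsMulCommutative in
theorem F4.commutator_centralizes {Γ : Type*} [Group Γ] [Finite Γ] {G : Subgroup Γ} {s : Γ}
    (h : F4 G s) (r : ℕ) (hr : r.Prime) (V : Subgroup Γ) (hVn : V.Normal) (hVne : V ≠ ⊥)
    (hVG : V ≤ G) (hVab : ∀ x ∈ V, ∀ y ∈ V, x * y = y * x) (hVr : ∀ x ∈ V, x ^ r = 1)
    (hVmin : ∀ W : Subgroup Γ, W.Normal → W ≤ V → W = ⊥ ∨ W = V)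
    (Λ : Subgroup Γ) (hΛ : V ⊔ Λ = ⊤) (hs : s ∈ Λ)
    (hnil : Group.IsNilpotent ↥⁅G.subgroupOf Λ, G.subgroupOf Λ⁆) :
    ∀ x ∈ ⁅G, G⁆, ∀ v ∈ V, x * v = v * x := by
  have hGn := h.normal
  have : IsMulCommutative V := ⟨⟨fun a b => Subtype.ext (hVab a a.2 b b.2)⟩⟩
  let ρΓ : Γ →* MulAut V := MulAut.conjNormal
  let ρ0 : Λ →* MulAut V := ρΓ.comp Λ.subtype
  have hρΓ : ∀ (g : Γ) (v : V), ((ρΓ g v : V) : Γ) = g * v * g⁻¹ := fun g v => rfl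
  have hdec : ∀ g : Γ, ∃ y ∈ V, ∃ z ∈ Λ, y * z = g := by
    intro g
    have : g ∈ V ⊔ Λ := by rw [hΛ]; trivial
    exact Subgroup.mem_sup_of_normal_left.1 this
  have hρV : ∀ y ∈ V, ρΓ y = 1 := by
    intro y hy
    ext v
    rw [hρΓ, MulAut.one_apply, hVab y hy v v.2]; group
  let X : Subgroup Λ := G.subgroupOf Λ
  have hXn : X.Normal := hGn.subgroupOf Λ
  let s0 : Λ := ⟨s, hs⟩
  have h0 : F4 X s0 := h.subgroupOf Λ hs
  have key := fpf4_propB (Γ := ρ0.range) (V := V) ρ0.range.subtype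
    (fun g hg => Subtype.ext hg) r hr (fun v => Subtype.ext (by simpa using hVr v v.2))
    ((Subgroup.nontrivial_iff_ne_bot V).2 hVne) ?hirr (ρ0.rangeRestrict s0) ?ht4 ?htV
    (X.map ρ0.rangeRestrict) (hXn.map _ ρ0.rangeRestrict_surjective) ?hfpf ?hnil
  case hirr =>
    intro W hW
    have hWn : (W.map V.subtype).Normal := by
      refine ⟨?_⟩
      rintro _ ⟨w, hw, rfl⟩ g
      obtain ⟨y, hy, z, hz, rfl⟩ := hdec g
      have h1 : ρ0 ⟨z, hz⟩ w ∈ W := hW ⟨ρ0 ⟨z, hz⟩, ⟨_, rfl⟩⟩ w hw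
      refine ⟨_, h1, ?_⟩
      have h2 : ((ρ0 ⟨z, hz⟩ w : V) : Γ) = z * w * z⁻¹ := rfl
      change ((ρ0 ⟨z, hz⟩ w : V) : Γ) = y * z * (w : Γ) * (y * z)⁻¹
      have h3 : z * w * z⁻¹ ∈ V := hVn.conj_mem w w.2 z
      rw [h2]
      calc z * w * z⁻¹ = (z * w * z⁻¹) * y * y⁻¹ := by group
        _ = y * (z * w * z⁻¹) * y⁻¹ := by rw [hVab _ h3 y hy]
        _ = y * z * (w : Γ) * (y * z)⁻¹ := by group
    rcases hVmin _ hWn (by rintro _ ⟨w, _, rfl⟩; exact w.2) with h1 | h1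
    · left
      exact (Subgroup.map_eq_bot_iff_of_injective _ V.subtype_injective).1 h1
    · right
      rw [eq_top_iff]
      intro v _
      have : (v : Γ) ∈ W.map V.subtype := by rw [h1]; exact v.2
      obtain ⟨w, hw, hwv⟩ := this
      have : w = v := Subtype.ext hwv
      rwa [← this]
  case ht4 =>
    rw [← map_pow, h0.pow, map_one]
  case htV =>
    intro v hv
    have h1 : s * v * s⁻¹ = v := congrArg Subtype.val hv
    exact Subtype.ext (h.fpf v (hVG v.2) (mul_inv_eq_iff_eq_mul.1 h1))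
  case hfpf =>
    rintro _ ⟨l, hl, rfl⟩ hcomm
    rw [← map_mul, ← map_mul] at hcomm
    have h1 : ρ0 (s0 * l) = ρ0 (l * s0) := congrArg Subtype.val hcomm
    have h2 : l⁻¹ * s0 * l * s0⁻¹ ∈ ρ0.ker ⊓ X := by
      refine Subgroup.mem_inf.2 ⟨?_, ?_⟩
      · rw [MonoidHom.mem_ker]
        have e : l⁻¹ * s0 * l * s0⁻¹ = l⁻¹ * (s0 * l) * s0⁻¹ := by group
        rw [e, map_mul, map_mul, h1, ← map_mul, ← map_mul]
        have e2 : l⁻¹ * (l * s0) * s0⁻¹ = 1 := by group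
        rw [e2, map_one]
      · have e : l⁻¹ * s0 * l * s0⁻¹ = l⁻¹ * (s0 * l * s0⁻¹) := by group
        rw [e]
        exact X.mul_mem (X.inv_mem hl) (hXn.conj_mem l hl s0)
    have h3 := mem_of_comm_mem X (ρ0.ker ⊓ X) inf_le_right s0
      (fun y hy => (inferInstance : (ρ0.ker ⊓ X).Normal).conj_mem y hy s0) h0.fpf l hl h2
    exact Subtype.ext (MonoidHom.mem_ker.1 h3.1)
  case hnil =>
    rw [← Subgroup.map_commutator]
    exact Group.nilpotent_of_surjective _ (ρ0.rangeRestrict.subgroupMap_surjective ⁅X, X⁆)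
  -- conclusion
  have hcomm : ∀ z1 ∈ G ⊓ Λ, ∀ z2 ∈ G ⊓ Λ, ρΓ z1 * ρΓ z2 = ρΓ z2 * ρΓ z1 := by
    intro z1 hz1 z2 hz2
    have := key (ρ0.rangeRestrict ⟨z1, hz1.2⟩) ⟨_, Subgroup.mem_subgroupOf.2 hz1.1, rfl⟩
      (ρ0.rangeRestrict ⟨z2, hz2.2⟩) ⟨_, Subgroup.mem_subgroupOf.2 hz2.1, rfl⟩
    exact congrArg Subtype.val this
  have hker : ⁅G, G⁆ ≤ ρΓ.ker := by
    rw [Subgroup.commutator_le]
    intro g1 hg1 g2 hg2
    obtain ⟨y1, hy1, z1, hz1, rfl⟩ := hdec g1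
    obtain ⟨y2, hy2, z2, hz2, rfl⟩ := hdec g2
    have hz1G : z1 ∈ G := by
      have : z1 = y1⁻¹ * (y1 * z1) := by group
      rw [this]; exact G.mul_mem (G.inv_mem (hVG hy1)) hg1
    have hz2G : z2 ∈ G := by
      have : z2 = y2⁻¹ * (y2 * z2) := by group
      rw [this]; exact G.mul_mem (G.inv_mem (hVG hy2)) hg2
    rw [MonoidHom.mem_ker, map_commutatorElement, map_mul, map_mul, hρV y1 hy1, hρV y2 hy2,
      one_mul, one_mul, commutatorElement_eq_one_iff_mul_comm]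
    exact hcomm z1 ⟨hz1G, hz1⟩ z2 ⟨hz2G, hz2⟩
  intro x hx v hv
  have h1 : ρΓ x = 1 := MonoidHom.mem_ker.1 (hker hx)
  have h2 : ((ρΓ x ⟨v, hv⟩ : V) : Γ) = x * v * x⁻¹ := rfl
  rw [h1] at h2
  exact (mul_inv_eq_iff_eq_mul.1 h2.symm)

end Cfsg.Agent.Lib.Helper74
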