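import Cfsg.Agent.Lib.Helper74.Fpf4E

set_option autoImplicit false

namespace Cfsg.Agent.Lib.Helper74

universe u

theorem F4.isNilpotent_aux : ∀ (n : ℕ) (Γ : Type u) [Group Γ] [Finite Γ] (G : Subgroup Γ) (s : Γ),
    Nat.card Γ = n → F4 G s → Group.IsSolvable G → Group.IsNilpotent ↥⁅G, G⁆ := by
  intro n
  induction n using Nat.strong_induction_on with
  | _ n ih =>
  intro Γ _ _ G s hn h hsol
  have hGn := h.normal
  by_contra hnil
  have hquo : ∀ (N : Subgroup Γ) [N.Normal], N ≠ ⊥ → N ≤ G →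
      Group.IsNilpotent ↥((⁅G, G⁆).map (QuotientGroup.mk' N)) := by
    intro N _ hN hNG
    have hcard : Nat.card (Γ ⧸ N) < n := by
      rw [← hn, Subgroup.card_eq_card_quotient_mul_card_subgroup N]
      exact lt_mul_of_one_lt_right Nat.card_pos ((Subgroup.one_lt_card_iff_ne_bot N).2 hN)
    have := ih _ hcard (Γ ⧸ N) (G.map (QuotientGroup.mk' N)) (QuotientGroup.mk' N s) rfl
      (h.quotient N hNG)
      (Group.isSolvable_of_surjective ((QuotientGroup.mk' N).subgroupMap_surjective G))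
    rwa [← Subgroup.map_commutator] at this
  have hinter : ∀ (N1 N2 : Subgroup Γ), N1.Normal → N2.Normal → N1 ≠ ⊥ → N2 ≠ ⊥ → N1 ≤ G →
      N2 ≤ G → N1 ⊓ N2 ≠ ⊥ := by
    intro N1 N2 _ _ h1 h2 h1H h2H hbot
    apply hnil
    have n1 := hquo N1 h1 h1H
    have n2 := hquo N2 h2 h2H
    refine isNilpotent_of_injective (((QuotientGroup.mk' N1).subgroupMap ⁅G, G⁆).prod
      ((QuotientGroup.mk' N2).subgroupMap ⁅G, G⁆)) ?_ inferInstance
    rw [injective_iff_map_eq_one]
    intro x hx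
    rw [MonoidHom.prod_apply, Prod.mk_eq_one] at hx
    have hx1 : (x : Γ) ∈ N1 :=
      (QuotientGroup.eq_one_iff (x : Γ)).1 (congrArg Subtype.val hx.1)
    have hx2 : (x : Γ) ∈ N2 :=
      (QuotientGroup.eq_one_iff (x : Γ)).1 (congrArg Subtype.val hx.2)
    have hx3 : (x : Γ) ∈ N1 ⊓ N2 := ⟨hx1, hx2⟩
    rw [hbot, Subgroup.mem_bot] at hx3
    exact Subtype.ext hx3
  have hG : G ≠ ⊥ := by
    rintro rfl
    apply hnil
    exact isNilpotent_of_le (commutator_self_le ⊥) inferInstance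
  obtain ⟨r, V, hr, hVn, hVne, hVG, hVab, hVr, hVmin⟩ := exists_minimal_normal_le G hG hsol
  have : Fact r.Prime := ⟨hr⟩
  have hKnil := hquo V hVne hVG
  by_cases hKr : IsPGroup r ↥((⁅G, G⁆).map (QuotientGroup.mk' V))
  · apply hnil
    have : IsPGroup r ↥⁅G, G⁆ := by
      rintro ⟨x, hx⟩
      obtain ⟨k, hk⟩ := hKr ⟨QuotientGroup.mk' V x, Subgroup.mem_map_of_mem _ hx⟩
      have h1 : QuotientGroup.mk' V (x ^ r ^ k) = 1 := by
        rw [map_pow]; simpa using congrArg Subtype.val hk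
      have h2 : x ^ r ^ k ∈ V := (QuotientGroup.eq_one_iff _).1 h1
      refine ⟨k + 1, Subtype.ext ?_⟩
      have := hVr _ h2
      rw [← pow_mul, ← pow_succ] at this
      simpa using this
    exact this.isNilpotent
  obtain ⟨q, hq, hqr, hqK⟩ : ∃ q : ℕ, q.Prime ∧ q ≠ r ∧
      q ∣ Nat.card ↥((⁅G, G⁆).map (QuotientGroup.mk' V)) := by
    by_contra hcon
    push Not at hcon
    apply hKr
    exact IsPGroup.of_card (Nat.eq_prime_pow_of_unique_prime_dvd Nat.card_pos.ne'
      (fun {d} hd hdd => by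
        by_contra hne
        exact hcon d hd hne hdd))
  have : Fact q.Prime := ⟨hq⟩
  have hcop : q.Coprime r := (Nat.coprime_primes hq hr).2 hqr
  obtain ⟨Q, hQp, hQV, hQK, hfrat⟩ := exists_sylow_frattini V ⁅G, G⁆ hKnil q hqK
  have hQG : Q ≤ G := hQK.trans (sup_le (commutator_self_le G) hVG)
  have hQne : Q ≠ ⊥ := by rintro rfl; exact hQV bot_le
  have hQVbot : V ⊓ Q = ⊥ := by
    rw [eq_bot_iff]
    intro x hx
    obtain ⟨k, hk⟩ := hQp ⟨x, hx.2⟩
    have hk' : x ^ q ^ k = 1 := by simpa using congrArg Subtype.val hk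
    rw [Subgroup.mem_bot]
    have h1 : orderOf x ∣ q ^ k := orderOf_dvd_of_pow_eq_one hk'
    have h2 : orderOf x ∣ r := orderOf_dvd_of_pow_eq_one (hVr x hx.1)
    have h3 : orderOf x ∣ 1 := by
      have := Nat.dvd_gcd h1 h2
      rwa [(Nat.Coprime.pow_left k hcop).gcd_eq_one] at this
    exact orderOf_eq_one_iff.1 (Nat.dvd_one.1 h3)
  by_cases hΛ : Subgroup.normalizer (Q : Set Γ) = ⊤
  · have hQn : Q.Normal := Subgroup.normalizer_eq_top_iff.1 hΛ
    exact hinter V Q hVn hQn hVne hQne hVG hQG hQVbot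
  have hs : s ∈ V ⊔ Subgroup.normalizer (Q : Set Γ) := by rw [sup_comm, hfrat]; trivial
  obtain ⟨y, hy, z, hz, hyz⟩ := Subgroup.mem_sup_of_normal_left.1 hs
  obtain ⟨u, hu, hus⟩ := exists_conj_eq_mul V s (fun a ha => hVn.conj_mem a ha s)
    (fun a ha => h.fpf a (hVG ha)) y⁻¹ (V.inv_mem hy)
  have hz' : z = u * s * u⁻¹ := by rw [hus, ← hyz]; group
  have h' : F4 G z := hz' ▸ h.conj u
  have hsubnil : Group.IsNilpotent ↥⁅G.subgroupOf (Subgroup.normalizer (Q : Set Γ)),
      G.subgroupOf (Subgroup.normalizer (Q : Set Γ))⁆ := by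
    refine ih (Nat.card (Subgroup.normalizer (Q : Set Γ))) ?_ (Subgroup.normalizer (Q : Set Γ)) _
      ⟨z, hz⟩ rfl (h'.subgroupOf _ hz) ?_
    · rw [← hn]
      have := card_lt_of_lt (lt_top_iff_ne_top.2 hΛ)
      rwa [Subgroup.card_top] at this
    · exact Group.isSolvable_of_isSolvable_injective
        (f := (Subgroup.normalizer (Q : Set Γ)).subtype.subgroupComap G)
        (fun a b hab => Subtype.ext (Subtype.ext (congrArg (fun z : G => (z : Γ)) hab)))
  have hcent := h'.commutator_centralizes r hr V hVn hVne hVG hVab hVr hVmin _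
    (by rw [sup_comm]; exact hfrat) hz hsubnil
  apply hΛ
  rw [eq_top_iff, ← hfrat]
  refine sup_le le_rfl ?_
  refine le_trans ?_ (Subgroup.centralizer_le_normalizer _)
  intro v hv
  rw [Subgroup.mem_centralizer_iff]
  intro x hx
  obtain ⟨k, hk, w, hw, rfl⟩ := Subgroup.mem_sup_of_normal_right.1 (hQK hx)
  calc k * w * v = k * (w * v) := by group
    _ = k * (v * w) := by rw [hVab w hw v hv]
    _ = (k * v) * w := by group
    _ = (v * k) * w := by rw [hcent k hk v hv]
    _ = v * (k * w) := by group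

open SemidirectProduct in
/-- A finite solvable group with a fixed-point-free automorphism `σ` with `σ ^ 4 = 1` has nilpotent
derived subgroup. -/
theorem isNilpotent_commutator_of_fpf4 {G : Type u} [Group G] [Finite G] (hG : Group.IsSolvable G)
    (σ : MulAut G) (hσ : σ ^ 4 = 1) (hfpf : ∀ g : G, σ g = g → g = 1) :
    Group.IsNilpotent (commutator G) := by
  let φ : MulAut G →* MulAut G := MonoidHom.id _
  have hfin : Finite (G ⋊[φ] MulAut G) := Finite.of_equiv _ (equivProd (φ := φ)).symm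
  let H : Subgroup (G ⋊[φ] MulAut G) := (inl : G →* G ⋊[φ] MulAut G).range
  have hHn : H.Normal := by
    change ((inl : G →* G ⋊[φ] MulAut G).range).Normal
    rw [range_inl_eq_ker_rightHom]; infer_instance
  have hF : F4 H (inr σ) := by
    refine ⟨hHn, by rw [← map_pow, hσ, map_one], ?_⟩
    rintro _ ⟨a, rfl⟩ hcomm
    have h1 : (inl (φ σ a) : G ⋊[φ] MulAut G) = inl a := by
      rw [inl_aut, hcomm, map_inv]; group
    have h2 : σ a = a := inl_injective h1
    rw [hfpf a h2, map_one]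
  have hsol : Group.IsSolvable H :=
    Group.isSolvable_of_surjective (inl : G →* G ⋊[φ] MulAut G).rangeRestrict_surjective
  have hnil := F4.isNilpotent_aux _ _ H (inr σ) rfl hF hsol
  have hmem : ∀ x : commutator G, (inl (x : G) : G ⋊[φ] MulAut G) ∈ ⁅H, H⁆ := by
    intro x
    have h1 : (commutator G).map (inl : G →* G ⋊[φ] MulAut G) = ⁅H, H⁆ := by
      rw [commutator_def, Subgroup.map_commutator, ← MonoidHom.range_eq_map]
    rw [← h1]
    exact ⟨x, x.2, rfl⟩
  exact isNilpotent_of_injective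
    (((inl : G →* G ⋊[φ] MulAut G).comp (commutator G).subtype).codRestrict ⁅H, H⁆ hmem)
    (fun x y hxy => Subtype.ext (inl_injective (congrArg Subtype.val hxy))) hnil

end Cfsg.Agent.Lib.Helper74
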