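import Mathlib

set_option autoImplicit false

namespace Cfsg.Agent.Lib.Helper74

open Finset

/-- **The norm trick, general exponent.** Let `Γ` act on the abelian group `W`, let `X ≤ Γ` be a
finite subgroup normalized by `t`, such that for `0 < i < n` the element `y ∈ X` is determined by
`(y t) ^ i`, and all `y t` (`y ∈ X`) have norm `0` on `W`.
Then `X` fixes all `|X|`-th powers in `W`. -/
theorem normTrick_gen {Γ W : Type*} [Group Γ] [CommGroup W] (ρ : Γ →* MulAut W)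
    (X : Subgroup Γ) [Finite X] (t : Γ) (n : ℕ) (hn : 0 < n)
    (htX : ∀ y ∈ X, t * y * t⁻¹ ∈ X)
    (hinj : ∀ i, 0 < i → i < n → ∀ y ∈ X, ∀ y' ∈ X, (y * t) ^ i = (y' * t) ^ i → y = y')
    (hN : ∀ y ∈ X, ∀ w : W, ∏ i ∈ range n, ρ ((y * t) ^ i) w = 1) :
    ∀ w : W, ∀ x ∈ X, ρ x (w ^ Nat.card X) = w ^ Nat.card X := by
  classical
  let _ := Fintype.ofFinite X
  have htX' : ∀ (i : ℕ), ∀ y ∈ X, t ^ i * y * (t ^ i)⁻¹ ∈ X := by
    intro i
    induction i with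
    | zero => intro y hy; simpa using hy
    | succ i ih =>
      intro y hy
      have h1 := htX _ (ih y hy)
      have h2 : t ^ (i + 1) * y * (t ^ (i + 1))⁻¹ = t * (t ^ i * y * (t ^ i)⁻¹) * t⁻¹ := by
        rw [pow_succ']; group
      rw [h2]; exact h1
  have hf : ∀ (i : ℕ), ∀ y ∈ X, (y * t) ^ i * (t ^ i)⁻¹ ∈ X := by
    intro i
    induction i with
    | zero => intro y _; simp
    | succ i ih =>
      intro y hy
      have h2 : (y * t) ^ (i + 1) * (t ^ (i + 1))⁻¹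
          = ((y * t) ^ i * (t ^ i)⁻¹) * (t ^ i * y * (t ^ i)⁻¹) := by
        rw [pow_succ, pow_succ]; group
      rw [h2]
      exact X.mul_mem (ih y hy) (htX' i y hy)
  let T : W → W := fun w => ∏ x : X, ρ (x : Γ) w
  have hTinv : ∀ w : W, ∀ x ∈ X, ρ x (T w) = T w := by
    intro w x hx
    change ρ x (∏ y : X, ρ (y : Γ) w) = ∏ y : X, ρ (y : Γ) w
    rw [map_prod]
    refine Fintype.prod_equiv (Equiv.mulLeft (⟨x, hx⟩ : X)) _ _ ?_
    intro y
    simp [map_mul]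
  have hTmul : ∀ (s : Finset ℕ) (g : ℕ → W), T (∏ i ∈ s, g i) = ∏ i ∈ s, T (g i) := by
    intro s g
    change ∏ x : X, ρ (x : Γ) (∏ i ∈ s, g i) = ∏ i ∈ s, ∏ x : X, ρ (x : Γ) (g i)
    rw [prod_comm]
    refine prod_congr rfl fun x _ => ?_
    rw [map_prod]
  have hTinvw : ∀ w : W, T w⁻¹ = (T w)⁻¹ := by
    intro w
    change ∏ x : X, ρ (x : Γ) w⁻¹ = (∏ x : X, ρ (x : Γ) w)⁻¹
    rw [← prod_inv_distrib]
    refine prod_congr rfl fun x _ => ?_
    rw [map_inv]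
  have hrow : ∀ i, 0 < i → i < n → ∀ w : W,
      ∏ y : X, ρ (((y : Γ) * t) ^ i) w = T (ρ (t ^ i) w) := by
    intro i hi0 hip w
    let f : X → X := fun y => ⟨((y : Γ) * t) ^ i * (t ^ i)⁻¹, hf i y y.2⟩
    have hfinj : Function.Injective f := by
      intro y y' hyy
      have h1 : ((y : Γ) * t) ^ i * (t ^ i)⁻¹ = ((y' : Γ) * t) ^ i * (t ^ i)⁻¹ :=
        congrArg Subtype.val hyy
      have h2 := mul_right_cancel h1
      exact Subtype.ext (hinj i hi0 hip y y.2 y' y'.2 h2)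
    have hfbij : Function.Bijective f := Finite.injective_iff_bijective.1 hfinj
    change _ = ∏ x : X, ρ (x : Γ) (ρ (t ^ i) w)
    rw [← hfbij.prod_comp (fun x : X => ρ (x : Γ) (ρ (t ^ i) w))]
    refine prod_congr rfl fun y _ => ?_
    change _ = ρ (((y : Γ) * t) ^ i * (t ^ i)⁻¹) (ρ (t ^ i) w)
    rw [← MulAut.mul_apply, ← map_mul, inv_mul_cancel_right]
  have hkey : ∀ w : W, T w = w ^ Nat.card X := by
    intro w
    obtain ⟨p', rfl⟩ : ∃ p', n = p' + 1 := ⟨n - 1, (Nat.succ_pred_eq_of_pos hn).symm⟩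
    have h1 : ∏ y : X, ∏ i ∈ range (p' + 1), ρ (((y : Γ) * t) ^ i) w = 1 :=
      prod_eq_one fun y _ => hN y y.2 w
    rw [prod_comm, prod_range_succ'] at h1
    have h2 : ∏ i ∈ range p', ∏ y : X, ρ (((y : Γ) * t) ^ (i + 1)) w
        = T (∏ i ∈ range p', ρ (t ^ (i + 1)) w) := by
      rw [hTmul]
      refine prod_congr rfl fun i hi => ?_
      exact hrow (i + 1) (Nat.succ_pos i) (Nat.succ_lt_succ (mem_range.1 hi)) w
    have h3 : ∏ i ∈ range p', ρ (t ^ (i + 1)) w = w⁻¹ := by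
      have h4 := hN 1 X.one_mem w
      rw [prod_range_succ'] at h4
      simp only [one_mul, pow_zero, map_one, MulAut.one_apply] at h4
      exact eq_inv_of_mul_eq_one_left h4
    rw [h2, h3, hTinvw] at h1
    simp only [pow_zero, map_one, MulAut.one_apply, prod_const, card_univ] at h1
    rw [Nat.card_eq_fintype_card]
    exact (inv_mul_eq_one.1 h1)
  intro w x hx
  rw [← hkey w]
  exact hTinv w x hx

/-- If `t` normalizes the finite subgroup `N` and centralizes no nontrivial element of it, then every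
element of the coset `N t` is an `N`-conjugate of `t`. -/
theorem exists_conj_eq_mul {Γ : Type*} [Group Γ] (N : Subgroup Γ) [Finite N] (t : Γ)
    (htN : ∀ y ∈ N, t * y * t⁻¹ ∈ N) (hfpf : ∀ y ∈ N, t * y = y * t → y = 1) :
    ∀ n ∈ N, ∃ u ∈ N, u * t * u⁻¹ = n * t := by
  let f : N → N := fun u => ⟨(u : Γ) * (t * (u : Γ)⁻¹ * t⁻¹), N.mul_mem u.2 (htN _ (N.inv_mem u.2))⟩
  have hfinj : Function.Injective f := by
    intro u w huw
    have h1 : (u : Γ) * (t * (u : Γ)⁻¹ * t⁻¹) = (w : Γ) * (t * (w : Γ)⁻¹ * t⁻¹) :=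
      congrArg Subtype.val huw
    have h2 : t * ((w : Γ)⁻¹ * u) = ((w : Γ)⁻¹ * u) * t := by
      have h3 : (u : Γ) * t * (u : Γ)⁻¹ = (w : Γ) * t * (w : Γ)⁻¹ := by
        have : (u : Γ) * t * (u : Γ)⁻¹ = ((u : Γ) * (t * (u : Γ)⁻¹ * t⁻¹)) * t := by group
        rw [this, h1]; group
      calc t * ((w : Γ)⁻¹ * u) = (w : Γ)⁻¹ * ((w : Γ) * t * (w : Γ)⁻¹) * u := by group
        _ = (w : Γ)⁻¹ * ((u : Γ) * t * (u : Γ)⁻¹) * u := by rw [h3]
        _ = ((w : Γ)⁻¹ * u) * t := by group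
    have h4 := hfpf _ (N.mul_mem (N.inv_mem w.2) u.2) h2
    exact Subtype.ext (inv_mul_eq_one.1 h4).symm
  have hfsurj : Function.Surjective f := Finite.injective_iff_surjective.1 hfinj
  intro n hn
  obtain ⟨u, hu⟩ := hfsurj ⟨n, hn⟩
  refine ⟨u, u.2, ?_⟩
  have h1 : (u : Γ) * (t * (u : Γ)⁻¹ * t⁻¹) = n := congrArg Subtype.val hu
  rw [← h1]; group

end Cfsg.Agent.Lib.Helper74
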