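import Cfsg.Agent.Lib.Helper74.Fpf4B

set_option autoImplicit false

namespace Cfsg.Agent.Lib.Helper74

/-- A self-map of a finite set of size prime to `p` whose `p`-th iterate is the identity has a fixed
point. -/
theorem exists_fixed_of_pow {α : Type*} [Finite α] (τ : α → α) (p : ℕ) (hp : p.Prime)
    (h : ∀ x, τ^[p] x = x) (hc : ¬ p ∣ Nat.card α) : ∃ x, τ x = x := by
  classical
  have : Fact p.Prime := ⟨hp⟩
  let _ := Fintype.ofFinite α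
  obtain ⟨τ', hτ'⟩ : ∃ τ' : Function.End α, τ' = τ := ⟨τ, rfl⟩
  have hf : τ' ^ p ^ 1 = 1 := by
    rw [pow_one]
    have h1 := hom_coe_pow (fun g : Function.End α => (g : α → α)) rfl (fun g h => rfl) τ' p
    funext x
    have h2 := congrFun h1 x
    rw [hτ'] at h2
    rw [hτ']
    exact h2.trans (h x)
  have h1 := Equiv.Perm.card_fixedPoints_modEq (f := τ') (p := p) (n := 1) hf
  by_contra hcon
  push Not at hcon
  have h2 : IsEmpty (Function.fixedPoints τ') :=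
    ⟨fun x => hcon x.1 ((congrFun hτ' x.1).symm.trans x.2)⟩
  have h3 : ∀ (inst : Fintype (Function.fixedPoints τ')), @Fintype.card _ inst = 0 :=
    fun inst => @Fintype.card_eq_zero _ inst h2
  rw [h3] at h1
  apply hc
  rw [Nat.card_eq_fintype_card]
  exact (Nat.modEq_zero_iff_dvd).1 h1

/-- If `e ∈ P t`, `e ^ p = 1 = t ^ p` and `p ∤ |P|`, then `e` is `P`-conjugate to `t`. -/
theorem exists_conj_of_pow {Γ : Type*} [Group Γ] (P : Subgroup Γ) [Finite P] (t e : Γ) (p : ℕ)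
    (hp : p.Prime) (htP : ∀ y ∈ P, t * y * t⁻¹ ∈ P) (het : e * t⁻¹ ∈ P) (ht : t ^ p = 1)
    (he : e ^ p = 1) (hc : ¬ p ∣ Nat.card P) : ∃ x ∈ P, x * t * x⁻¹ = e := by
  let τ : P → P := fun x => ⟨e * x * t⁻¹, by
    have : e * x * t⁻¹ = (e * t⁻¹) * (t * x * t⁻¹) := by group
    rw [this]; exact P.mul_mem het (htP x x.2)⟩
  have hit : ∀ (n : ℕ) (x : P), ((τ^[n] x : P) : Γ) = e ^ n * x * (t ^ n)⁻¹ := by
    intro n
    induction n with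
    | zero => intro x; simp
    | succ n ih =>
      intro x
      rw [Function.iterate_succ_apply']
      change e * ((τ^[n] x : P) : Γ) * t⁻¹ = _
      rw [ih, pow_succ', pow_succ']
      group
  obtain ⟨x, hx⟩ := exists_fixed_of_pow τ p hp
    (fun x => Subtype.ext (by rw [hit, he, ht]; simp)) hc
  refine ⟨x, x.2, ?_⟩
  have h1 : e * x * t⁻¹ = x := congrArg Subtype.val hx
  calc (x : Γ) * t * (x : Γ)⁻¹ = (e * x * t⁻¹) * t * (x : Γ)⁻¹ := by rw [h1]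
    _ = e := by group

/-- An invariant coset of a subgroup of order prime to `p` contains a fixed point. -/
theorem exists_fixed_in_coset {Γ : Type*} [Group Γ] (N : Subgroup Γ) [Finite N] (t x : Γ) (p : ℕ)
    (hp : p.Prime) (htN : ∀ y ∈ N, t * y * t⁻¹ ∈ N) (ht : t ^ p = 1)
    (hx : x⁻¹ * (t * x * t⁻¹) ∈ N) (hc : ¬ p ∣ Nat.card N) :
    ∃ n ∈ N, t * (x * n) = (x * n) * t := by
  obtain ⟨n, hn, hne⟩ := exists_conj_of_pow N t (x⁻¹ * t * x) p hp htN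
    (by have : x⁻¹ * t * x * t⁻¹ = x⁻¹ * (t * x * t⁻¹) := by group
        rw [this]; exact hx) ht
    (by have : x⁻¹ * t * x = x⁻¹ * t * x⁻¹⁻¹ := by group
        rw [this, conj_pow, ht]; group) hc
  refine ⟨n, hn, ?_⟩
  calc t * (x * n) = x * (x⁻¹ * t * x) * n := by group
    _ = x * (n * t * n⁻¹) * n := by rw [hne]
    _ = (x * n) * t := by group

/-- If `e₀ ∈ M t` with `M` normal of order prime to `p` and `t ^ p = 1`, then some power `e` of `e₀`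
lies in `M t` and satisfies `e ^ p = 1`. -/
theorem exists_pow_of_coset {Γ : Type*} [Group Γ] (M : Subgroup Γ) [hM : M.Normal] [Finite M]
    (t e₀ : Γ) (p : ℕ) (hp : p.Prime) (ht : t ^ p = 1) (he : e₀ * t⁻¹ ∈ M)
    (hc : ¬ p ∣ Nat.card M) :
    ∃ k : ℕ, k % p = 1 ∧ (e₀ ^ k) ^ p = 1 ∧ e₀ ^ k * t⁻¹ ∈ M := by
  have hπ : (QuotientGroup.mk' M) e₀ = (QuotientGroup.mk' M) t := by
    have h1 : (QuotientGroup.mk' M) (e₀ * t⁻¹) = 1 := (QuotientGroup.eq_one_iff _).2 he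
    rw [map_mul, map_inv, mul_inv_eq_one] at h1
    exact h1
  have h3 : e₀ ^ p ∈ M := by
    rw [← QuotientGroup.eq_one_iff]
    change (QuotientGroup.mk' M) (e₀ ^ p) = 1
    rw [map_pow, hπ, ← map_pow, ht, map_one]
  have hcop : Nat.Coprime p (orderOf (e₀ ^ p)) :=
    ((Nat.Prime.coprime_iff_not_dvd hp).2 hc).coprime_dvd_right (Subgroup.orderOf_dvd_natCard M h3)
  let k := Nat.chineseRemainder hcop 1 0
  have hk1 : (k : ℕ) ≡ 1 [MOD p] := k.2.1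
  have hk2 : (k : ℕ) ≡ 0 [MOD orderOf (e₀ ^ p)] := k.2.2
  refine ⟨k, ?_, ?_, ?_⟩
  · rw [hk1, Nat.mod_eq_of_lt hp.one_lt]
  · rw [← pow_mul, mul_comm, pow_mul]
    exact orderOf_dvd_iff_pow_eq_one.1 ((Nat.modEq_zero_iff_dvd).1 hk2)
  · rw [← QuotientGroup.eq_one_iff]
    change (QuotientGroup.mk' M) (e₀ ^ (k : ℕ) * t⁻¹) = 1
    rw [map_mul, map_pow, hπ, ← map_pow, ← map_mul]
    have h4 : t ^ (k : ℕ) = t := by
      rw [pow_eq_pow_mod _ ht, hk1, Nat.mod_eq_of_lt hp.one_lt, pow_one]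
    rw [h4, mul_inv_cancel, map_one]

/-- The relations of the symmetric group of degree `3`. -/
structure S3Rel {Γ : Type*} [Group Γ] (f h : Γ) : Prop where
  f3 : f ^ 3 = 1
  h2 : h ^ 2 = 1
  rel : h * f * h⁻¹ = f⁻¹

theorem S3Rel.conj {Γ : Type*} [Group Γ] {f h : Γ} (r : S3Rel f h) (x : Γ) :
    S3Rel (x * f * x⁻¹) (x * h * x⁻¹) := by
  refine ⟨by rw [conj_pow, r.f3]; group, by rw [conj_pow, r.h2]; group, ?_⟩
  calc x * h * x⁻¹ * (x * f * x⁻¹) * (x * h * x⁻¹)⁻¹ = x * (h * f * h⁻¹) * x⁻¹ := by group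
    _ = (x * f * x⁻¹)⁻¹ := by rw [r.rel]; group

theorem S3Rel.map {Γ Γ' : Type*} [Group Γ] [Group Γ'] {f h : Γ} (r : S3Rel f h) (φ : Γ →* Γ') :
    S3Rel (φ f) (φ h) :=
  ⟨by rw [← map_pow, r.f3, map_one], by rw [← map_pow, r.h2, map_one],
    by rw [← map_inv, ← map_mul, ← map_mul, r.rel, map_inv]⟩

theorem S3Rel.h_inv {Γ : Type*} [Group Γ] {f h : Γ} (r : S3Rel f h) : h⁻¹ = h := by
  have := r.h2
  rw [pow_two] at this
  exact inv_eq_of_mul_eq_one_left this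

/-- `h` normalizes the centralizer of `f`. -/
theorem S3Rel.comm_conj {Γ : Type*} [Group Γ] {f h : Γ} (r : S3Rel f h) {y : Γ}
    (hy : f * y = y * f) : f * (h * y * h⁻¹) = (h * y * h⁻¹) * f := by
  have h1 : f⁻¹ * (h * y * h⁻¹) = (h * y * h⁻¹) * f⁻¹ := by
    rw [← r.rel]
    calc h * f * h⁻¹ * (h * y * h⁻¹) = h * (f * y) * h⁻¹ := by group
      _ = h * (y * f) * h⁻¹ := by rw [hy]
      _ = h * y * h⁻¹ * (h * f * h⁻¹) := by group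
  calc f * (h * y * h⁻¹) = f * ((h * y * h⁻¹) * f⁻¹) * f := by group
    _ = f * (f⁻¹ * (h * y * h⁻¹)) * f := by rw [h1]
    _ = (h * y * h⁻¹) * f := by group

/-- Fixed-point-freeness of `⟨f, h⟩` passes to quotients. -/
theorem S3Rel.mem_of_comm_mem {Γ : Type*} [Group Γ] {f h : Γ} (r : S3Rel f h)
    (X N : Subgroup Γ) [Finite N] (hNX : N ≤ X)
    (hfN : ∀ y ∈ N, f * y * f⁻¹ ∈ N) (hhN : ∀ y ∈ N, h * y * h⁻¹ ∈ N)
    (hcop : (Nat.card N).Coprime 6)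
    (hfpf : ∀ y ∈ X, f * y = y * f → h * y = y * h → y = 1) (x : Γ) (hx : x ∈ X)
    (h1 : x⁻¹ * (f * x * f⁻¹) ∈ N) (h2 : x⁻¹ * (h * x * h⁻¹) ∈ N) : x ∈ N := by
  have hc3 : ¬ 3 ∣ Nat.card N := by
    intro hd
    have := Nat.dvd_gcd hd (by norm_num : 3 ∣ 6)
    rw [hcop.gcd_eq_one] at this
    omega
  have hc2 : ¬ 2 ∣ Nat.card N := by
    intro hd
    have := Nat.dvd_gcd hd (by norm_num : 2 ∣ 6)
    rw [hcop.gcd_eq_one] at this
    omega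
  obtain ⟨n1, hn1, hc1⟩ := exists_fixed_in_coset N f x 3 Nat.prime_three hfN r.f3 h1 hc3
  set N0 : Subgroup Γ := N ⊓ Subgroup.centralizer {f} with hN0
  have hmemN0 : ∀ y, y ∈ N0 ↔ y ∈ N ∧ f * y = y * f := by
    intro y
    rw [hN0, Subgroup.mem_inf, Subgroup.mem_centralizer_singleton_iff, eq_comm]
  have hfin0 : Finite N0 := Finite.of_injective _ (Subgroup.inclusion_injective
    (inf_le_left : N0 ≤ N))
  have hc20 : ¬ 2 ∣ Nat.card N0 := fun hd =>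
    hc2 (hd.trans (Subgroup.card_dvd_of_le (inf_le_left : N0 ≤ N)))
  have hx' : (x * n1)⁻¹ * (h * (x * n1) * h⁻¹) ∈ N0 := by
    rw [hmemN0]
    constructor
    · have : (x * n1)⁻¹ * (h * (x * n1) * h⁻¹)
          = n1⁻¹ * (x⁻¹ * (h * x * h⁻¹)) * (h * n1 * h⁻¹) := by group
      rw [this]
      exact N.mul_mem (N.mul_mem (N.inv_mem hn1) h2) (hhN n1 hn1)
    · have e1 : Commute f (h * (x * n1) * h⁻¹) := r.comm_conj hc1
      have e2 : Commute f (x * n1) := hc1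
      exact (e2.inv_right.mul_right e1).eq
  obtain ⟨n2, hn2, hc2'⟩ := exists_fixed_in_coset N0 h (x * n1) 2 Nat.prime_two
    (fun y hy => by
      rw [hmemN0] at hy ⊢
      exact ⟨hhN y hy.1, r.comm_conj hy.2⟩) r.h2 hx' hc20
  have hn2' := (hmemN0 n2).1 hn2
  have hcf : f * (x * n1 * n2) = (x * n1 * n2) * f :=
    (Commute.mul_right (show Commute f (x * n1) from hc1) (show Commute f n2 from hn2'.2)).eq
  have h3 := hfpf (x * n1 * n2) (X.mul_mem (X.mul_mem hx (hNX hn1)) (hNX hn2'.1)) hcf hc2'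
  have h4 : x = (n1 * n2)⁻¹ := by
    rw [mul_assoc] at h3
    exact eq_inv_of_mul_eq_one_left h3
  rw [h4]
  exact N.inv_mem (N.mul_mem hn1 hn2'.1)

theorem not_dvd_of_coprime_six {n : ℕ} (h : n.Coprime 6) : ¬ 2 ∣ n ∧ ¬ 3 ∣ n := by
  constructor
  · intro hd
    have := Nat.dvd_gcd hd (by norm_num : 2 ∣ 6)
    rw [h.gcd_eq_one] at this
    omega
  · intro hd
    have := Nat.dvd_gcd hd (by norm_num : 3 ∣ 6)
    rw [h.gcd_eq_one] at this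
    omega

/-- A subgroup `T` covering `⟨f, h⟩` modulo the normal subgroup `M` of order prime to `6` contains an
`M`-conjugate of the pair `(f, h)`. -/
theorem S3Rel.exists_conj_pair {Γ : Type*} [Group Γ] {f h : Γ} (r : S3Rel f h) (M : Subgroup Γ)
    [hM : M.Normal] [Finite M] (hcop : (Nat.card M).Coprime 6) (T : Subgroup Γ) (ef eh : Γ)
    (hef : ef ∈ T) (hefM : ef * f⁻¹ ∈ M) (heh : eh ∈ T) (hehM : eh * h⁻¹ ∈ M) :
    ∃ x ∈ M, x * f * x⁻¹ ∈ T ∧ x * h * x⁻¹ ∈ T := by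
  obtain ⟨hc2, hc3⟩ := not_dvd_of_coprime_six hcop
  obtain ⟨k, -, hk3, hkM⟩ := exists_pow_of_coset M f ef 3 Nat.prime_three r.f3 hefM hc3
  obtain ⟨x1, hx1, hx1e⟩ := exists_conj_of_pow M f (ef ^ k) 3 Nat.prime_three
    (fun y hy => hM.conj_mem y hy f) hkM r.f3 hk3 hc3
  obtain ⟨f1, hf1⟩ : ∃ f1, f1 = x1 * f * x1⁻¹ := ⟨_, rfl⟩
  obtain ⟨h1, hh1⟩ : ∃ h1, h1 = x1 * h * x1⁻¹ := ⟨_, rfl⟩
  have r1 : S3Rel f1 h1 := by rw [hf1, hh1]; exact r.conj x1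
  have hf1T : f1 ∈ T := by rw [hf1, hx1e]; exact T.pow_mem hef k
  have hehM1 : eh * h1⁻¹ ∈ M := by
    have : eh * h1⁻¹ = (eh * h⁻¹) * (h * x1 * h⁻¹) * x1⁻¹ := by rw [hh1]; group
    rw [this]; exact M.mul_mem (M.mul_mem hehM (hM.conj_mem x1 hx1 h)) (M.inv_mem hx1)
  have hrel1 : h1 * f1⁻¹ * h1⁻¹ = f1 := by
    have : h1 * f1⁻¹ * h1⁻¹ = (h1 * f1 * h1⁻¹)⁻¹ := by group
    rw [this, r1.rel, inv_inv]
  obtain ⟨e3, he3⟩ : ∃ e3, e3 = eh * f1⁻¹ * eh⁻¹ := ⟨_, rfl⟩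
  have he3T : e3 ∈ T := by
    rw [he3]; exact T.mul_mem (T.mul_mem heh (T.inv_mem hf1T)) (T.inv_mem heh)
  have he3M : e3 * f1⁻¹ ∈ M := by
    have : e3 * f1⁻¹ = (eh * h1⁻¹) * (f1 * (eh * h1⁻¹)⁻¹ * f1⁻¹) := by
      calc e3 * f1⁻¹ = (eh * h1⁻¹) * (h1 * f1⁻¹ * h1⁻¹) * (eh * h1⁻¹)⁻¹ * f1⁻¹ := by
            rw [he3]; group
        _ = (eh * h1⁻¹) * (f1 * (eh * h1⁻¹)⁻¹ * f1⁻¹) := by rw [hrel1]; group
    rw [this]
    exact M.mul_mem hehM1 (hM.conj_mem _ (M.inv_mem hehM1) f1)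
  have he33 : e3 ^ 3 = 1 := by rw [he3, conj_pow, inv_pow, r1.f3]; group
  have hfinTM : Finite (T ⊓ M : Subgroup Γ) :=
    Finite.of_injective _ (Subgroup.inclusion_injective (inf_le_right : T ⊓ M ≤ M))
  obtain ⟨z, hz, hze⟩ := exists_conj_of_pow (T ⊓ M) f1 e3 3 Nat.prime_three
    (fun y hy => ⟨T.mul_mem (T.mul_mem hf1T hy.1) (T.inv_mem hf1T), hM.conj_mem y hy.2 f1⟩)
    ⟨T.mul_mem he3T (T.inv_mem hf1T), he3M⟩ r1.f3 he33
    (fun hd => hc3 (hd.trans (Subgroup.card_dvd_of_le (inf_le_right : T ⊓ M ≤ M))))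
  obtain ⟨e4, he4⟩ : ∃ e4, e4 = z⁻¹ * eh := ⟨_, rfl⟩
  have he4T : e4 ∈ T := by rw [he4]; exact T.mul_mem (T.inv_mem hz.1) heh
  have he4M : e4 * h1⁻¹ ∈ M := by
    rw [he4, mul_assoc]; exact M.mul_mem (M.inv_mem hz.2) hehM1
  have he4f : e4 * f1⁻¹ * e4⁻¹ = f1 := by
    calc e4 * f1⁻¹ * e4⁻¹ = z⁻¹ * (eh * f1⁻¹ * eh⁻¹) * z := by rw [he4]; group
      _ = z⁻¹ * (z * f1 * z⁻¹) * z := by rw [← he3, hze]
      _ = f1 := by group
  have he4f' : e4 * f1 * e4⁻¹ = f1⁻¹ := by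
    have : e4 * f1 * e4⁻¹ = (e4 * f1⁻¹ * e4⁻¹)⁻¹ := by group
    rw [this, he4f]
  obtain ⟨k2, hk2odd, hk22, hk2M⟩ := exists_pow_of_coset M h1 e4 2 Nat.prime_two r1.h2 he4M hc2
  have hsq : Commute (e4 ^ 2) f1 := by
    have : e4 ^ 2 * f1 * (e4 ^ 2)⁻¹ = f1 := by
      calc e4 ^ 2 * f1 * (e4 ^ 2)⁻¹ = e4 * (e4 * f1 * e4⁻¹) * e4⁻¹ := by rw [pow_two]; group
        _ = f1 := by rw [he4f', he4f]
    exact mul_inv_eq_iff_eq_mul.1 this
  obtain ⟨e5, he5⟩ : ∃ e5, e5 = e4 ^ k2 := ⟨_, rfl⟩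
  have he5f : e5 * f1⁻¹ * e5⁻¹ = f1 := by
    obtain ⟨j, hj⟩ : ∃ j, k2 = 2 * j + 1 := ⟨k2 / 2, by omega⟩
    have h6 : Commute ((e4 ^ 2) ^ j) f1 := hsq.pow_left j
    have h7 : e5 = (e4 ^ 2) ^ j * e4 := by rw [he5, hj, pow_succ, pow_mul]
    calc e5 * f1⁻¹ * e5⁻¹ = (e4 ^ 2) ^ j * (e4 * f1⁻¹ * e4⁻¹) * ((e4 ^ 2) ^ j)⁻¹ := by
          rw [h7]; group
      _ = (e4 ^ 2) ^ j * f1 * ((e4 ^ 2) ^ j)⁻¹ := by rw [he4f]
      _ = f1 := mul_inv_eq_iff_eq_mul.2 h6.eq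
  have he5T : e5 ∈ T := by rw [he5]; exact T.pow_mem he4T k2
  set P2 : Subgroup Γ := M ⊓ Subgroup.centralizer {f1} with hP2
  have hmemP2 : ∀ y, y ∈ P2 ↔ y ∈ M ∧ f1 * y = y * f1 := by
    intro y
    rw [hP2, Subgroup.mem_inf, Subgroup.mem_centralizer_singleton_iff, eq_comm]
  have hfinP2 : Finite P2 :=
    Finite.of_injective _ (Subgroup.inclusion_injective (inf_le_left : P2 ≤ M))
  have hw : e5 * h1⁻¹ ∈ P2 := by
    rw [hmemP2]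
    refine ⟨by rw [he5]; exact hk2M, ?_⟩
    have h8 : (e5 * h1⁻¹) * f1 * (e5 * h1⁻¹)⁻¹ = f1 := by
      have h9 : h1⁻¹ * f1 * h1 = f1⁻¹ := by
        have := r1.rel
        rw [r1.h_inv] at this ⊢
        exact this
      calc (e5 * h1⁻¹) * f1 * (e5 * h1⁻¹)⁻¹ = e5 * (h1⁻¹ * f1 * h1) * e5⁻¹ := by group
        _ = f1 := by rw [h9, he5f]
    exact (mul_inv_eq_iff_eq_mul.1 h8).symm
  obtain ⟨x2, hx2, hx2e⟩ := exists_conj_of_pow P2 h1 e5 2 Nat.prime_two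
    (fun y hy => by
      rw [hmemP2] at hy ⊢
      exact ⟨hM.conj_mem y hy.1 h1, r1.comm_conj hy.2⟩) hw r1.h2 (by rw [he5]; exact hk22)
    (fun hd => hc2 (hd.trans (Subgroup.card_dvd_of_le (inf_le_left : P2 ≤ M))))
  have hx2' := (hmemP2 x2).1 hx2
  refine ⟨x2 * x1, M.mul_mem hx2'.1 hx1, ?_, ?_⟩
  · have : x2 * x1 * f * (x2 * x1)⁻¹ = x2 * f1 * x2⁻¹ := by rw [hf1]; group
    rw [this, ← hx2'.2, mul_inv_cancel_right]
    exact hf1T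
  · have : x2 * x1 * h * (x2 * x1)⁻¹ = x2 * h1 * x2⁻¹ := by rw [hh1]; group
    rw [this, hx2e]
    exact he5T

end Cfsg.Agent.Lib.Helper74
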