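import Cfsg.Agent.Lib.Helper74.S3A

set_option autoImplicit false

namespace Cfsg.Agent.Lib.Helper74

theorem S3Rel.inv {Γ : Type*} [Group Γ] {f h : Γ} (r : S3Rel f h) : S3Rel f⁻¹ h := by
  refine ⟨by rw [inv_pow, r.f3, inv_one], r.h2, ?_⟩
  have : h * f⁻¹ * h⁻¹ = (h * f * h⁻¹)⁻¹ := by group
  rw [this, r.rel]

theorem S3Rel.hf {Γ : Type*} [Group Γ] {f h : Γ} (r : S3Rel f h) : h * f = f⁻¹ * h :=
  mul_inv_eq_iff_eq_mul.1 r.rel

theorem S3Rel.hfinv {Γ : Type*} [Group Γ] {f h : Γ} (r : S3Rel f h) : h * f⁻¹ = f * h := by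
  have := r.inv.hf
  rwa [inv_inv] at this

theorem S3Rel.ff {Γ : Type*} [Group Γ] {f h : Γ} (r : S3Rel f h) : f * f = f⁻¹ := by
  have := r.f3
  rw [pow_succ, pow_two] at this
  exact eq_inv_of_mul_eq_one_left this

theorem S3Rel.hh {Γ : Type*} [Group Γ] {f h : Γ} (r : S3Rel f h) : h * h = 1 := by
  have := r.h2
  rwa [pow_two] at this

theorem triv_mul {Γ : Type*} [Group Γ] (X N : Subgroup Γ) (hNX : N ≤ X) {a b : Γ}
    (ha : ∀ x ∈ X, x⁻¹ * (a * x * a⁻¹) ∈ N) (hb : ∀ x ∈ X, x⁻¹ * (b * x * b⁻¹) ∈ N) :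
    ∀ x ∈ X, x⁻¹ * ((a * b) * x * (a * b)⁻¹) ∈ N := by
  intro x hx
  have hx' : b * x * b⁻¹ ∈ X := by
    have : b * x * b⁻¹ = x * (x⁻¹ * (b * x * b⁻¹)) := by group
    rw [this]; exact X.mul_mem hx (hNX (hb x hx))
  have : x⁻¹ * ((a * b) * x * (a * b)⁻¹)
      = (x⁻¹ * (b * x * b⁻¹)) * ((b * x * b⁻¹)⁻¹ * (a * (b * x * b⁻¹) * a⁻¹)) := by group
  rw [this]; exact N.mul_mem (hb x hx) (ha _ hx')

/-- If `h` is trivial on `X / K` and `f h f⁻¹` is trivial on `X / K'`, then `X = K K'`. -/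
theorem S3Rel.cover {Γ : Type*} [Group Γ] {f h : Γ} (r : S3Rel f h) (X : Subgroup Γ) [Finite X]
    (hcop : (Nat.card X).Coprime 6)
    (hfpf : ∀ y ∈ X, f * y = y * f → h * y = y * h → y = 1) (K K' : Subgroup Γ) (hKX : K ≤ X)
    (hK'X : K' ≤ X) (hK'n : ∀ x ∈ X, ∀ k ∈ K', x * k * x⁻¹ ∈ K')
    (hh : ∀ x ∈ X, x⁻¹ * (h * x * h⁻¹) ∈ K)
    (hh' : ∀ x ∈ X, x⁻¹ * ((f * h * f⁻¹) * x * (f * h * f⁻¹)⁻¹) ∈ K') :
    ∀ x ∈ X, ∃ a ∈ K, ∃ b ∈ K', x = a * b := by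
  obtain ⟨N, hN⟩ : ∃ N, N = K ⊔ K' := ⟨_, rfl⟩
  have hNX : N ≤ X := by rw [hN]; exact sup_le hKX hK'X
  have hfinN : Finite N := Finite.of_injective _ (Subgroup.inclusion_injective hNX)
  have t1 : ∀ x ∈ X, x⁻¹ * (h * x * h⁻¹) ∈ N := fun x hx => by
    rw [hN]; exact (le_sup_left : K ≤ K ⊔ K') (hh x hx)
  have t2 : ∀ x ∈ X, x⁻¹ * ((f * h * f⁻¹) * x * (f * h * f⁻¹)⁻¹) ∈ N := fun x hx => by
    rw [hN]; exact (le_sup_right : K' ≤ K ⊔ K') (hh' x hx)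
  have t3 := triv_mul X N hNX t2 t1
  have e1 : f * h * f⁻¹ * h = f⁻¹ := by
    calc f * h * f⁻¹ * h = f * (h * f⁻¹) * h := by group
      _ = f * f * (h * h) := by rw [r.hfinv]; group
      _ = f⁻¹ := by rw [r.hh, r.ff, mul_one]
  rw [e1] at t3
  have t4 := triv_mul X N hNX t3 t3
  have e2 : f⁻¹ * f⁻¹ = f := by
    have := r.inv.ff
    rwa [inv_inv] at this
  rw [e2] at t4
  have hinvN : ∀ a : Γ, (∀ x ∈ X, x⁻¹ * (a * x * a⁻¹) ∈ N) → ∀ y ∈ N, a * y * a⁻¹ ∈ N := by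
    intro a ha y hy
    have : a * y * a⁻¹ = y * (y⁻¹ * (a * y * a⁻¹)) := by group
    rw [this]; exact N.mul_mem hy (ha y (hNX hy))
  intro x hx
  have hxN := r.mem_of_comm_mem X N hNX (hinvN f t4) (hinvN h t1)
    (hcop.coprime_dvd_left (Subgroup.card_dvd_of_le hNX)) hfpf x hx (t4 x hx) (t1 x hx)
  have hle : K ≤ Subgroup.normalizer (K' : Set Γ) := by
    intro k hk
    rw [Subgroup.mem_normalizer_iff]
    intro n
    refine ⟨hK'n k (hKX hk) n, fun hn => ?_⟩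
    have := hK'n k⁻¹ (X.inv_mem (hKX hk)) _ hn
    have e : k⁻¹ * (k * n * k⁻¹) * k⁻¹⁻¹ = n := by group
    rwa [e] at this
  have hset := Subgroup.coe_mul_of_left_le_normalizer_right K K' hle
  have hx2 : x ∈ ((K ⊔ K' : Subgroup Γ) : Set Γ) := by rw [← hN]; exact hxN
  rw [hset] at hx2
  obtain ⟨a, ha, b, hb, hab⟩ := Set.mem_mul.1 hx2
  exact ⟨a, ha, b, hb, hab.symm⟩

/-- **Lemma C1.** -/
theorem S3Rel.comm_mem_of_triv {Γ : Type*} [Group Γ] {f h : Γ} (r : S3Rel f h) (X : Subgroup Γ)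
    [Finite X] (hfX : ∀ x ∈ X, f * x * f⁻¹ ∈ X)
    (hcop : (Nat.card X).Coprime 6)
    (hfpf : ∀ y ∈ X, f * y = y * f → h * y = y * h → y = 1) (K : Subgroup Γ) (hKX : K ≤ X)
    (hKn : ∀ x ∈ X, ∀ k ∈ K, x * k * x⁻¹ ∈ K)
    (hh : ∀ x ∈ X, x⁻¹ * (h * x * h⁻¹) ∈ K)
    (hD : ∀ x ∈ K, f⁻¹ * x * f ∈ K → f * x * f⁻¹ ∈ K → x = 1) :
    ∀ x ∈ X, ∀ y ∈ X, x * y * x⁻¹ * y⁻¹ ∈ K := by
  have hff := r.ff
  have hfX' : ∀ x ∈ X, f⁻¹ * x * f ∈ X := by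
    intro x hx
    have h1 := hfX _ (hfX x hx)
    have : f * (f * x * f⁻¹) * f⁻¹ = (f * f) * x * (f * f)⁻¹ := by group
    rw [this, hff, inv_inv] at h1
    exact h1
  have hhK : ∀ k ∈ K, h * k * h⁻¹ ∈ K := by
    intro k hk
    have : h * k * h⁻¹ = k * (k⁻¹ * (h * k * h⁻¹)) := by group
    rw [this]; exact K.mul_mem hk (hh k (hKX hk))
  let K2 : Subgroup Γ := K.comap (MulAut.conj f⁻¹).toMonoidHom
  let K3 : Subgroup Γ := K.comap (MulAut.conj f).toMonoidHom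
  have m2 : ∀ x, x ∈ K2 ↔ f⁻¹ * x * f ∈ K := by
    intro x
    change f⁻¹ * x * f⁻¹⁻¹ ∈ K ↔ _
    rw [inv_inv]
  have m3 : ∀ x, x ∈ K3 ↔ f * x * f⁻¹ ∈ K := fun x => Iff.rfl
  have hK2X : K2 ≤ X := by
    intro x hx
    have h1 := hfX _ (hKX ((m2 x).1 hx))
    have : f * (f⁻¹ * x * f) * f⁻¹ = x := by group
    rwa [this] at h1
  have hK3X : K3 ≤ X := by
    intro x hx
    have h1 := hfX' _ (hKX ((m3 x).1 hx))
    have : f⁻¹ * (f * x * f⁻¹) * f = x := by group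
    rwa [this] at h1
  have hK2n : ∀ x ∈ X, ∀ k ∈ K2, x * k * x⁻¹ ∈ K2 := by
    intro x hx k hk
    rw [m2] at hk ⊢
    have h1 := hKn _ (hfX' x hx) _ hk
    have : f⁻¹ * (x * k * x⁻¹) * f = f⁻¹ * x * f * (f⁻¹ * k * f) * (f⁻¹ * x * f)⁻¹ := by group
    rw [this]; exact h1
  have hK3n : ∀ x ∈ X, ∀ k ∈ K3, x * k * x⁻¹ ∈ K3 := by
    intro x hx k hk
    rw [m3] at hk ⊢
    have h1 := hKn _ (hfX x hx) _ hk
    have : f * (x * k * x⁻¹) * f⁻¹ = f * x * f⁻¹ * (f * k * f⁻¹) * (f * x * f⁻¹)⁻¹ := by group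
    rw [this]; exact h1
  have hcov2 := r.cover X hcop hfpf K K2 hKX hK2X hK2n hh (by
    intro x hx
    rw [m2]
    have h1 := hh _ (hfX' x hx)
    have : f⁻¹ * (x⁻¹ * ((f * h * f⁻¹) * x * (f * h * f⁻¹)⁻¹)) * f
        = (f⁻¹ * x * f)⁻¹ * (h * (f⁻¹ * x * f) * h⁻¹) := by group
    rw [this]; exact h1)
  have hcov3 := r.inv.cover X hcop (by
    intro y hy h1 h2
    exact hfpf y hy (Commute.inv_left_iff.1 h1) h2) K K3 hKX hK3X hK3n hh (by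
    intro x hx
    rw [m3]
    have h1 := hh _ (hfX x hx)
    have : f * (x⁻¹ * ((f⁻¹ * h * f⁻¹⁻¹) * x * (f⁻¹ * h * f⁻¹⁻¹)⁻¹)) * f⁻¹
        = (f * x * f⁻¹)⁻¹ * (h * (f * x * f⁻¹) * h⁻¹) := by group
    rw [this]; exact h1)
  -- step 1
  have hstep1 : ∀ a ∈ X, f⁻¹ * a * f ∈ K → f * a * f⁻¹ ∈ K → a = 1 := by
    intro a ha hc1 hb1
    obtain ⟨b, hb⟩ : ∃ b, b = f * a * f⁻¹ := ⟨_, rfl⟩
    obtain ⟨c, hc⟩ : ∃ c, c = f⁻¹ * a * f := ⟨_, rfl⟩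
    rw [← hb] at hb1
    rw [← hc] at hc1
    have fb : f * b * f⁻¹ = c := by
      calc f * b * f⁻¹ = (f * f) * a * (f * f)⁻¹ := by rw [hb]; group
        _ = c := by rw [hff, inv_inv, hc]
    have fc : f * c * f⁻¹ = a := by rw [hc]; group
    have gb : f⁻¹ * b * f = a := by rw [hb]; group
    have gc : f⁻¹ * c * f = b := by
      calc f⁻¹ * c * f = (f * f)⁻¹ * a * (f * f) := by rw [hc]; group
        _ = b := by rw [hff, inv_inv, hb]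
    have hbX : b ∈ X := hKX hb1
    have hcX : c ∈ X := hKX hc1
    have hab : a * b * a⁻¹ * b⁻¹ = 1 := by
      apply hD
      · exact K.mul_mem (hKn a ha b hb1) (K.inv_mem hb1)
      · have : f⁻¹ * (a * b * a⁻¹ * b⁻¹) * f
            = (f⁻¹ * a * f) * ((f⁻¹ * b * f) * (f⁻¹ * a * f)⁻¹ * (f⁻¹ * b * f)⁻¹) := by group
        rw [this, ← hc, gb]
        exact K.mul_mem hc1 (hKn a ha _ (K.inv_mem hc1))
      · have : f * (a * b * a⁻¹ * b⁻¹) * f⁻¹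
            = (f * a * f⁻¹) * (f * b * f⁻¹) * (f * a * f⁻¹)⁻¹ * (f * b * f⁻¹)⁻¹ := by group
        rw [this, ← hb, fb]
        exact K.mul_mem (K.mul_mem (K.mul_mem hb1 hc1) (K.inv_mem hb1)) (K.inv_mem hc1)
    have cab : Commute a b := by
      have : a * b = (a * b * a⁻¹ * b⁻¹) * (b * a) := by group
      rw [hab, one_mul] at this
      exact this
    have cbc : Commute b c := by
      have h1 : f * (a * b) * f⁻¹ = f * (b * a) * f⁻¹ := by rw [cab.eq]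
      have e1 : f * (a * b) * f⁻¹ = (f * a * f⁻¹) * (f * b * f⁻¹) := by group
      have e2 : f * (b * a) * f⁻¹ = (f * b * f⁻¹) * (f * a * f⁻¹) := by group
      rw [e1, e2, ← hb, fb] at h1
      exact h1
    have cca : Commute c a := by
      have h1 : f * (b * c) * f⁻¹ = f * (c * b) * f⁻¹ := by rw [cbc.eq]
      have e1 : f * (b * c) * f⁻¹ = (f * b * f⁻¹) * (f * c * f⁻¹) := by group
      have e2 : f * (c * b) * f⁻¹ = (f * c * f⁻¹) * (f * b * f⁻¹) := by group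
      rw [e1, e2, fb, fc] at h1
      exact h1
    have hconj1 : ∀ z : Γ, f⁻¹ * (h * z * h⁻¹) * f = h * (f * z * f⁻¹) * h⁻¹ := by
      intro z
      calc f⁻¹ * (h * z * h⁻¹) * f = (f⁻¹ * h) * z * (f⁻¹ * h)⁻¹ := by group
        _ = h * (f * z * f⁻¹) * h⁻¹ := by rw [← r.hf]; group
    have hconj2 : ∀ z : Γ, f * (h * z * h⁻¹) * f⁻¹ = h * (f⁻¹ * z * f) * h⁻¹ := by
      intro z
      calc f * (h * z * h⁻¹) * f⁻¹ = (f * h) * z * (f * h)⁻¹ := by group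
        _ = h * (f⁻¹ * z * f) * h⁻¹ := by rw [← r.hfinv]; group
    have hha : h * a * h⁻¹ = a := by
      have h1 : a⁻¹ * (h * a * h⁻¹) = 1 := by
        apply hD
        · exact hh a ha
        · have : f⁻¹ * (a⁻¹ * (h * a * h⁻¹)) * f
              = (f⁻¹ * a * f)⁻¹ * (f⁻¹ * (h * a * h⁻¹) * f) := by group
          rw [this, hconj1, ← hb, ← hc]
          exact K.mul_mem (K.inv_mem hc1) (hhK b hb1)
        · have : f * (a⁻¹ * (h * a * h⁻¹)) * f⁻¹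
              = (f * a * f⁻¹)⁻¹ * (f * (h * a * h⁻¹) * f⁻¹) := by group
          rw [this, hconj2, ← hb, ← hc]
          exact K.mul_mem (K.inv_mem hb1) (hhK c hc1)
      exact (inv_mul_eq_one.1 h1).symm
    have hhb : h * b * h⁻¹ = c := by
      rw [hb, ← hconj1, hha, hc]
    have hhc : h * c * h⁻¹ = b := by
      rw [hc, ← hconj2, hha, hb]
    have hw : a * b * c = 1 := by
      apply hfpf _ (X.mul_mem (X.mul_mem ha hbX) hcX)
      · apply mul_inv_eq_iff_eq_mul.1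
        have : f * (a * b * c) * f⁻¹ = (f * a * f⁻¹) * (f * b * f⁻¹) * (f * c * f⁻¹) := by group
        rw [this, ← hb, fb, fc]
        rw [(cab.symm.mul_left cca).eq, mul_assoc]
      · apply mul_inv_eq_iff_eq_mul.1
        have : h * (a * b * c) * h⁻¹ = (h * a * h⁻¹) * (h * b * h⁻¹) * (h * c * h⁻¹) := by group
        rw [this, hha, hhb, hhc, mul_assoc, cbc.symm.eq, mul_assoc]
    have haK : a ∈ K := by
      have : a = (b * c)⁻¹ := by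
        rw [mul_assoc] at hw
        exact eq_inv_of_mul_eq_one_left hw
      rw [this]; exact K.inv_mem (K.mul_mem hb1 hc1)
    exact hD a haK (hc ▸ hc1) (hb ▸ hb1)
  intro x hx y hy
  obtain ⟨k1, hk1, k2, hk2, rfl⟩ := hcov2 x hx
  obtain ⟨k1', hk1', k3, hk3, rfl⟩ := hcov3 y hy
  have hk2X := hK2X hk2
  have hk3X := hK3X hk3
  have h23 : k2 * k3 * k2⁻¹ * k3⁻¹ = 1 := by
    apply hstep1 _ (X.mul_mem (X.mul_mem (X.mul_mem hk2X hk3X) (X.inv_mem hk2X)) (X.inv_mem hk3X))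
    · rw [← m2]
      have : k2 * k3 * k2⁻¹ * k3⁻¹ = k2 * (k3 * k2⁻¹ * k3⁻¹) := by group
      rw [this]
      exact K2.mul_mem hk2 (hK2n k3 hk3X _ (K2.inv_mem hk2))
    · rw [← m3]
      exact K3.mul_mem (hK3n k2 hk2X _ hk3) (K3.inv_mem hk3)
  have : k1 * k2 * (k1' * k3) * (k1 * k2)⁻¹ * (k1' * k3)⁻¹
      = k1 * (k2 * k1' * k2⁻¹) * (k2 * k3 * k2⁻¹ * k3⁻¹) * (k3 * k1⁻¹ * k3⁻¹) * k1'⁻¹ := by group
  rw [this, h23, mul_one]
  exact K.mul_mem (K.mul_mem (K.mul_mem hk1 (hKn k2 hk2X _ hk1')) (hKn k3 hk3X _ (K.inv_mem hk1)))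
    (K.inv_mem hk1')

end Cfsg.Agent.Lib.Helper74
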