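import Cfsg.Agent.Lib.Helper74.S3A
import Cfsg.Agent.Lib.Helper74.NormTrick

set_option autoImplicit false

namespace Cfsg.Agent.Lib.Helper74

open Finset

theorem rho_mul_apply {Γ V : Type*} [Group Γ] [CommGroup V] (ρ : Γ →* MulAut V) (a b : Γ) (v : V) :
    ρ (a * b) v = ρ a (ρ b v) := by rw [map_mul, MulAut.mul_apply]

theorem rho_inv_apply_eq {Γ V : Type*} [Group Γ] [CommGroup V] (ρ : Γ →* MulAut V) (a : Γ) (v : V)
    (h : ρ a v = v) : ρ a⁻¹ v = v := by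
  have h1 : ρ a⁻¹ (ρ a v) = v := by rw [← rho_mul_apply, inv_mul_cancel, map_one, MulAut.one_apply]
  rwa [h] at h1

theorem rho_pow_apply_eq {Γ V : Type*} [Group Γ] [CommGroup V] (ρ : Γ →* MulAut V) (a : Γ) (v : V)
    (h : ρ a v = v) (k : ℕ) : ρ (a ^ k) v = v := by
  induction k with
  | zero => simp
  | succ k ih => rw [pow_succ, rho_mul_apply, h, ih]

/-- The norm of a fixed-point-free element of order `3` vanishes. -/
theorem norm3_eq_one {Γ V : Type*} [Group Γ] [CommGroup V] (ρ : Γ →* MulAut V) (e : Γ)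
    (he : e ^ 3 = 1) (hfpf : ∀ v, ρ e v = v → v = 1) (w : V) :
    w * ρ e w * ρ (e ^ 2) w = 1 := by
  apply hfpf
  rw [map_mul, map_mul, ← rho_mul_apply, ← rho_mul_apply, ← pow_succ', he, ← pow_two, map_one,
    MulAut.one_apply]
  simp only [mul_comm, mul_left_comm]

theorem fpf_conj {Γ V : Type*} [Group Γ] [CommGroup V] (ρ : Γ →* MulAut V) (e x : Γ)
    (hfpf : ∀ v, ρ e v = v → v = 1) : ∀ v, ρ (x * e * x⁻¹) v = v → v = 1 := by
  intro v hv
  have h1 : ρ e (ρ x⁻¹ v) = ρ x⁻¹ v := by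
    have h2 : ρ x⁻¹ (ρ (x * e * x⁻¹) v) = ρ x⁻¹ v := by rw [hv]
    rw [← rho_mul_apply] at h2
    rw [← rho_mul_apply]
    have h3 : x⁻¹ * (x * e * x⁻¹) = e * x⁻¹ := by group
    rwa [h3] at h2
  have h3 := hfpf _ h1
  have h4 : ρ x (ρ x⁻¹ v) = ρ x 1 := by rw [h3]
  rw [← rho_mul_apply, mul_inv_cancel, map_one, map_one] at h4
  simpa using h4

/-- If the norms of `f` and `z f` vanish, then the fixed points of `z` are fixed by `f z f⁻¹`. -/
theorem fix_conj_of_norm3 {Γ V : Type*} [Group Γ] [CommGroup V] (ρ : Γ →* MulAut V) (f z : Γ)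
    (hNf : ∀ w, w * ρ f w * ρ (f ^ 2) w = 1)
    (hNz : ∀ w, w * ρ (z * f) w * ρ ((z * f) ^ 2) w = 1) (v : V) (hv : ρ z v = v) :
    ρ (f * z * f⁻¹) v = v := by
  have h1 := hNz v
  have e1 : (z * f) ^ 2 = z * (f * z * f⁻¹) * f ^ 2 := by rw [pow_two, pow_two]; group
  have h2 : ρ (f ^ 2) v = (v * ρ f v)⁻¹ := eq_inv_of_mul_eq_one_right (hNf v)
  have h3 : ρ (z * (f * z * f⁻¹)) (ρ f v) = ρ z (ρ f v) := by
    rw [← rho_mul_apply]
    have : z * (f * z * f⁻¹) * f = z * f * z := by group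
    rw [this, rho_mul_apply, hv, rho_mul_apply]
  rw [e1, rho_mul_apply _ _ (f ^ 2), h2, map_inv, rho_mul_apply ρ z f,
    map_mul (ρ (z * (f * z * f⁻¹))), h3] at h1
  have h4 : ρ (z * (f * z * f⁻¹)) v = v := by
    have h5 : v * ρ z (ρ f v) * (ρ (z * (f * z * f⁻¹)) v * ρ z (ρ f v))⁻¹
        = v * (ρ (z * (f * z * f⁻¹)) v)⁻¹ := by
      rw [mul_inv_rev, mul_assoc, mul_inv_cancel_left]
    rw [h5] at h1
    exact (mul_inv_eq_one.1 h1).symm
  rw [rho_mul_apply] at h4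
  apply (ρ z).injective
  rw [h4, hv]

theorem cl2_pow_left {Γ : Type*} [Group Γ] {a b c : Γ} (h : a * b = c * (b * a))
    (hca : Commute c a) (i : ℕ) : a ^ i * b = c ^ i * (b * a ^ i) := by
  induction i with
  | zero => simp
  | succ i ih =>
    have h1 : Commute (a ^ i) c := (hca.pow_right i).symm
    calc a ^ (i + 1) * b = a ^ i * (a * b) := by rw [pow_succ]; group
      _ = a ^ i * c * (b * a) := by rw [h]; group
      _ = c * (a ^ i * b) * a := by rw [h1.eq]; group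
      _ = c * (c ^ i * (b * a ^ i)) * a := by rw [ih]
      _ = c ^ (i + 1) * (b * a ^ (i + 1)) := by rw [pow_succ', pow_succ]; group

theorem cl2_pow_right {Γ : Type*} [Group Γ] {a b c : Γ} (h : a * b = c * (b * a))
    (hcb : Commute c b) (j : ℕ) : a * b ^ j = c ^ j * (b ^ j * a) := by
  induction j with
  | zero => simp
  | succ j ih =>
    have h1 : Commute (b ^ j) c := (hcb.pow_right j).symm
    calc a * b ^ (j + 1) = (a * b ^ j) * b := by rw [pow_succ]; group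
      _ = c ^ j * b ^ j * (a * b) := by rw [ih]; group
      _ = c ^ j * (b ^ j * c) * (b * a) := by rw [h]; group
      _ = c ^ j * (c * b ^ j) * (b * a) := by rw [h1.eq]
      _ = c ^ (j + 1) * (b ^ (j + 1) * a) := by rw [pow_succ, pow_succ]; group

/-- The power formula in groups of class `2`. -/
theorem cl2_mul_pow {Γ : Type*} [Group Γ] {a b c : Γ} (h : a * b = c * (b * a))
    (hca : Commute c a) (hcb : Commute c b) (k : ℕ) :
    (a * b) ^ k * c ^ (k.choose 2) = a ^ k * b ^ k := by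
  induction k with
  | zero => simp
  | succ k ih =>
    have h1 : a * b ^ k = c ^ k * (b ^ k * a) := cl2_pow_right h hcb k
    have h2 : Commute (c ^ k) (a * b) := (hca.mul_right hcb).pow_left k
    have h3 : Commute (c ^ (k.choose 2)) (a * b) := (hca.mul_right hcb).pow_left _
    have h4 : (k + 1).choose 2 = k + k.choose 2 := by
      rw [Nat.choose_succ_succ' k 1, Nat.choose_one_right]
    have h5 : Commute (c ^ k) (a ^ k) := (hca.pow_left k).pow_right k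
    calc (a * b) ^ (k + 1) * c ^ ((k + 1).choose 2)
        = (a * b) ^ k * ((a * b) * c ^ k) * c ^ (k.choose 2) := by
          rw [h4, pow_succ, pow_add]; group
      _ = (a * b) ^ k * (c ^ k * (a * b)) * c ^ (k.choose 2) := by rw [h2.eq]
      _ = (a * b) ^ k * c ^ k * ((a * b) * c ^ (k.choose 2)) := by group
      _ = (a * b) ^ k * c ^ k * (c ^ (k.choose 2) * (a * b)) := by rw [h3.eq]
      _ = (a * b) ^ k * (c ^ k * c ^ (k.choose 2)) * (a * b) := by group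
      _ = (a * b) ^ k * (c ^ (k.choose 2) * c ^ k) * (a * b) := by
          rw [← pow_add, ← pow_add, add_comm]
      _ = ((a * b) ^ k * c ^ (k.choose 2)) * c ^ k * (a * b) := by group
      _ = a ^ k * b ^ k * c ^ k * (a * b) := by rw [ih]
      _ = a ^ k * b ^ k * c ^ k * (a * b) := rfl
      _ = a ^ (k + 1) * b ^ (k + 1) := by
          have h6 : b ^ k * c ^ k * a = a * b ^ k := by
            rw [h1, ((hcb.pow_left k).pow_right k).eq.symm]; group
          calc a ^ k * b ^ k * c ^ k * (a * b) = a ^ k * (b ^ k * c ^ k * a) * b := by group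
            _ = a ^ k * (a * b ^ k) * b := by rw [h6]
            _ = a ^ (k + 1) * b ^ (k + 1) := by rw [pow_succ, pow_succ]; group


theorem mul_pow_three_conj {Γ : Type*} [Group Γ] (w f : Γ) :
    (w * f) ^ 3 = w * (f * w * f⁻¹) * (f * (f * w * f⁻¹) * f⁻¹) * f ^ 3 := by
  simp only [pow_succ, pow_zero, one_mul]; group

/-- The abelian case. -/
theorem eq_one_of_comm_norm {Γ V : Type*} [Group Γ] [CommGroup V] [Finite V] (ρ : Γ →* MulAut V)
    (f : Γ) (hf3 : f ^ 3 = 1) (hfV : ∀ v, ρ f v = v → v = 1) (P : Subgroup Γ) [Finite P]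
    (hfP : ∀ y ∈ P, f * y * f⁻¹ ∈ P) (h3 : ¬ 3 ∣ Nat.card P)
    (hcop : (Nat.card P).Coprime (Nat.card V)) (hinj : ∀ x ∈ P, ρ x = 1 → x = 1)
    (w : Γ) (hw : w ∈ P) (hN : (w * f) ^ 3 = 1)
    (hc : w * (f * w * f⁻¹) = (f * w * f⁻¹) * w) : w = 1 := by
  obtain ⟨w1, hw1⟩ : ∃ w1, w1 = f * w * f⁻¹ := ⟨_, rfl⟩
  rw [← hw1] at hc
  have hN' : w * w1 * (f * w1 * f⁻¹) = 1 := by
    have := mul_pow_three_conj w f
    rw [hN, hf3, mul_one, ← hw1] at this
    exact this.symm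
  have hw2 : f * w1 * f⁻¹ = (w * w1)⁻¹ := eq_inv_of_mul_eq_one_right hN'
  obtain ⟨E, hE⟩ : ∃ E, E = Subgroup.closure ({w, w1} : Set Γ) := ⟨_, rfl⟩
  have hwE : w ∈ E := by rw [hE]; exact Subgroup.subset_closure (by simp)
  have hw1E : w1 ∈ E := by rw [hE]; exact Subgroup.subset_closure (by simp)
  have hEP : E ≤ P := by
    rw [hE, Subgroup.closure_le]
    rintro x (rfl | rfl)
    · exact hw
    · rw [SetLike.mem_coe, hw1]; exact hfP _ hw
  have hfE : ∀ y ∈ E, f * y * f⁻¹ ∈ E := by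
    intro y hy
    rw [hE] at hy
    induction hy using Subgroup.closure_induction with
    | mem x hx =>
      rcases hx with rfl | rfl
      · rw [← hw1]; exact hw1E
      · rw [hw2]; exact E.inv_mem (E.mul_mem hwE hw1E)
    | one => simp
    | mul a b _ _ ha hb =>
      have : f * (a * b) * f⁻¹ = (f * a * f⁻¹) * (f * b * f⁻¹) := by group
      rw [this]; exact E.mul_mem ha hb
    | inv a _ ha =>
      have : f * a⁻¹ * f⁻¹ = (f * a * f⁻¹)⁻¹ := by group
      rw [this]; exact E.inv_mem ha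
  have hab : ∀ a ∈ E, ∀ b ∈ E, a * b = b * a := by
    rw [hE]; exact comm_of_closure_pair w w1 hc
  have hNE : ∀ y ∈ E, y * (f * y * f⁻¹) * (f * (f * y * f⁻¹) * f⁻¹) = 1 := by
    intro y hy
    have hy' := hy
    rw [hE] at hy'
    induction hy' using Subgroup.closure_induction with
    | mem x hx =>
      rcases hx with rfl | rfl
      · rw [← hw1]; exact hN'
      · have e1 : f * (f * x * f⁻¹) * f⁻¹ = w := by
          rw [hw1]
          calc f * (f * (f * w * f⁻¹) * f⁻¹) * f⁻¹ = f ^ 3 * w * (f ^ 3)⁻¹ := by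
                simp only [pow_succ, pow_zero, one_mul]; group
            _ = w := by rw [hf3]; group
        rw [e1]
        calc x * (f * x * f⁻¹) * w = w⁻¹ * (w * x * (f * x * f⁻¹)) * w := by group
          _ = 1 := by rw [hN']; group
    | one => simp
    | mul a b ha hb iha ihb =>
      have haE : a ∈ E := by rw [hE]; exact ha
      have hbE : b ∈ E := by rw [hE]; exact hb
      have e1 : f * (a * b) * f⁻¹ = (f * a * f⁻¹) * (f * b * f⁻¹) := by group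
      have e2 : f * ((f * a * f⁻¹) * (f * b * f⁻¹)) * f⁻¹
          = (f * (f * a * f⁻¹) * f⁻¹) * (f * (f * b * f⁻¹) * f⁻¹) := by group
      have c1 : Commute b (f * a * f⁻¹) := hab _ hbE _ (hfE a haE)
      have c2 : Commute (b * (f * b * f⁻¹)) (f * (f * a * f⁻¹) * f⁻¹) :=
        hab _ (E.mul_mem hbE (hfE b hbE)) _ (hfE _ (hfE a haE))
      rw [e1, e2, c1.mul_mul_mul_comm, c2.mul_mul_mul_comm, iha haE, ihb hbE, one_mul]
    | inv a ha iha =>
      have haE : a ∈ E := by rw [hE]; exact ha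
      have e1 : f * a⁻¹ * f⁻¹ = (f * a * f⁻¹)⁻¹ := by group
      have e0 : ∀ z : Γ, f * z⁻¹ * f⁻¹ = (f * z * f⁻¹)⁻¹ := by intro z; group
      have e2 : f * (f * a * f⁻¹)⁻¹ * f⁻¹ = (f * (f * a * f⁻¹) * f⁻¹)⁻¹ := e0 _
      have c1 : a * (f * a * f⁻¹) = (f * a * f⁻¹) * a := hab _ haE _ (hfE a haE)
      have c2 : (f * a * f⁻¹ * a) * (f * (f * a * f⁻¹) * f⁻¹)
          = (f * (f * a * f⁻¹) * f⁻¹) * (f * a * f⁻¹ * a) :=
        hab _ (E.mul_mem (hfE a haE) haE) _ (hfE _ (hfE a haE))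
      have h1 := iha haE
      rw [c1, c2] at h1
      rw [e1, e2]
      calc a⁻¹ * (f * a * f⁻¹)⁻¹ * (f * (f * a * f⁻¹) * f⁻¹)⁻¹
          = ((f * (f * a * f⁻¹) * f⁻¹) * (f * a * f⁻¹ * a))⁻¹ := by group
        _ = 1 := by rw [h1, inv_one]
  have hfinE : Finite E := Finite.of_injective _ (Subgroup.inclusion_injective hEP)
  have hpow : ∀ y ∈ E, (y * f) ^ 3 = 1 := by
    intro y hy
    rw [mul_pow_three_conj, hNE y hy, hf3, one_mul]
  have h3E : ¬ 3 ∣ Nat.card E := fun hd => h3 (hd.trans (Subgroup.card_dvd_of_le hEP))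
  have key := normTrick ρ E f 3 Nat.prime_three hfE hpow ?_
  · apply hinj w hw
    ext v
    obtain ⟨m, hm⟩ := exists_pow_eq_self_of_coprime (n := Nat.card E) (x := v)
      ((hcop.coprime_dvd_left (Subgroup.card_dvd_of_le hEP)).coprime_dvd_right
        (orderOf_dvd_natCard v))
    have h1 := key v w hwE
    rw [MulAut.one_apply, ← hm, map_pow, h1]
  · intro y hy v
    obtain ⟨x, -, hx⟩ := exists_conj_of_pow E f (y * f) 3 Nat.prime_three hfE
      (by rw [mul_inv_cancel_right]; exact hy) hf3 (hpow y hy) h3E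
    have h1 := norm3_eq_one ρ (y * f) (hpow y hy) (hx ▸ fpf_conj ρ f x hfV) v
    simpa [prod_range_succ] using h1

theorem rho_trace_fixed {Γ V : Type*} [Group Γ] [CommGroup V] (ρ : Γ →* MulAut V) (x : Γ) (u : ℕ)
    (hx : x ^ u = 1) (v : V) :
    ρ x (∏ j ∈ range u, ρ (x ^ j) v) = ∏ j ∈ range u, ρ (x ^ j) v := by
  rw [map_prod]
  have h1 : ∀ j ∈ range u, ρ x (ρ (x ^ j) v) = ρ (x ^ (j + 1)) v := by
    intro j _
    rw [← rho_mul_apply, pow_succ']
  rw [prod_congr rfl h1]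
  have h2 := prod_range_succ (fun j => ρ (x ^ j) v) u
  have h3 := prod_range_succ' (fun j => ρ (x ^ j) v) u
  rw [h2] at h3
  simp only [hx, pow_zero] at h3
  exact (mul_right_cancel h3).symm

/-- The extraspecial case. -/
theorem cl2_prime_trivial {Γ V : Type*} [Group Γ] [CommGroup V] [Finite V] (ρ : Γ →* MulAut V)
    (f w c : Γ) (u : ℕ) (hu : u.Prime)
    (hNf : ∀ v, v * ρ f v * ρ (f ^ 2) v = 1)
    (hNw : ∀ v, v * ρ (w * f) v * ρ ((w * f) ^ 2) v = 1)
    (hrel : w * (f * w * f⁻¹) = c * ((f * w * f⁻¹) * w)) (hcw : Commute c w)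
    (hcw1 : Commute c (f * w * f⁻¹)) (hwu : w ^ u = 1) (hcu : c ^ u = 1)
    (hcop : u.Coprime (Nat.card V)) : ρ c = 1 := by
  obtain ⟨w1, hw1⟩ : ∃ w1, w1 = f * w * f⁻¹ := ⟨_, rfl⟩
  rw [← hw1] at hrel hcw1
  let Cc : Subgroup V :=
    { carrier := {v | ρ c v = v}
      mul_mem' := fun {a b} ha hb => by
        change ρ c (a * b) = a * b
        rw [map_mul, ha, hb]
      one_mem' := map_one _
      inv_mem' := fun {a} ha => by
        change ρ c a⁻¹ = a⁻¹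
        rw [map_inv, ha] }
  have hCc : ∀ v, v ∈ Cc ↔ ρ c v = v := fun v => Iff.rfl
  have hfix0 : ∀ v, ρ w v = v → ρ c v = v := by
    intro v hv
    have h1 : ρ w1 v = v := by rw [hw1]; exact fix_conj_of_norm3 ρ f w hNf hNw v hv
    have h2 : ρ (w * w1) v = v := by rw [rho_mul_apply, h1, hv]
    rw [hrel, rho_mul_apply, rho_mul_apply, hv, h1] at h2
    exact h2
  have hfixi : ∀ (i : ℕ) (v : V), ρ (w * c ^ i) v = v → ρ c v = v := by
    intro i v hv
    have h1 : w * w1 ^ i = c ^ i * (w1 ^ i * w) := cl2_pow_right hrel hcw1 i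
    have h2 : c ^ i * (w1 ^ i * w) = w1 ^ i * (w * c ^ i) := by
      have c1 : Commute (c ^ i) (w1 ^ i * w) := ((hcw1.pow_right i).mul_right hcw).pow_left i
      rw [c1.eq]; group
    have h3 : ρ w (ρ (w1 ^ i) v) = ρ (w1 ^ i) v := by
      rw [← rho_mul_apply, h1, h2, rho_mul_apply, hv]
    have h4 := hfix0 _ h3
    rw [← rho_mul_apply, (hcw1.pow_right i).eq, rho_mul_apply] at h4
    exact (ρ (w1 ^ i)).injective h4
  have hmain : ∀ v : V, v ^ u ∈ Cc := by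
    intro v
    obtain ⟨u', rfl⟩ : ∃ u', u = u' + 1 := ⟨u - 1, by have := hu.pos; omega⟩
    have hA : ∏ i ∈ range (u' + 1), ∏ j ∈ range (u' + 1), ρ ((w * c ^ i) ^ j) v ∈ Cc := by
      refine Subgroup.prod_mem _ fun i _ => ?_
      rw [hCc]
      apply hfixi i
      apply rho_trace_fixed
      rw [(hcw.symm.pow_right i).mul_pow, hwu, ← pow_mul, mul_comm, pow_mul, hcu, one_pow, one_mul]
    have hB : ∏ j ∈ range u', ρ (w ^ (j + 1)) (∏ i ∈ range (u' + 1), ρ ((c ^ (j + 1)) ^ i) v)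
        ∈ Cc := by
      refine Subgroup.prod_mem _ fun j hj => ?_
      rw [hCc]
      have hj' : j + 1 < u' + 1 := by have := mem_range.1 hj; omega
      have h1 : ρ (c ^ (j + 1)) (∏ i ∈ range (u' + 1), ρ ((c ^ (j + 1)) ^ i) v)
          = ∏ i ∈ range (u' + 1), ρ ((c ^ (j + 1)) ^ i) v := by
        apply rho_trace_fixed
        rw [← pow_mul, mul_comm, pow_mul, hcu, one_pow]
      have hcop' : Nat.Coprime (j + 1) (u' + 1) :=
        (Nat.coprime_of_lt_prime (Nat.succ_ne_zero j) hj' hu).symm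
      obtain ⟨m, -, hm⟩ := Nat.exists_mul_mod_eq_one_of_coprime hcop' hu.one_lt
      have h2 : (c ^ (j + 1)) ^ m = c := by
        rw [← pow_mul, pow_eq_pow_mod _ hcu, hm, pow_one]
      have h3 := rho_pow_apply_eq ρ _ _ h1 m
      rw [h2] at h3
      rw [← rho_mul_apply, (hcw.pow_right (j + 1)).eq, rho_mul_apply, h3]
    have hAB : ∏ i ∈ range (u' + 1), ∏ j ∈ range (u' + 1), ρ ((w * c ^ i) ^ j) v
        = (∏ j ∈ range u', ρ (w ^ (j + 1)) (∏ i ∈ range (u' + 1), ρ ((c ^ (j + 1)) ^ i) v))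
          * v ^ (u' + 1) := by
      rw [prod_comm, prod_range_succ']
      congr 1
      · refine prod_congr rfl fun j _ => ?_
        rw [map_prod]
        refine prod_congr rfl fun i _ => ?_
        rw [← rho_mul_apply, (hcw.symm.pow_right i).mul_pow, ← pow_mul, ← pow_mul,
          mul_comm i (j + 1)]
      · simp
    have h5 : v ^ (u' + 1) = (∏ j ∈ range u', ρ (w ^ (j + 1))
        (∏ i ∈ range (u' + 1), ρ ((c ^ (j + 1)) ^ i) v))⁻¹
        * ∏ i ∈ range (u' + 1), ∏ j ∈ range (u' + 1), ρ ((w * c ^ i) ^ j) v := by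
      rw [hAB, inv_mul_cancel_left]
    rw [h5]
    exact Cc.mul_mem (Cc.inv_mem hB) hA
  ext v
  obtain ⟨m, hm⟩ := exists_pow_eq_self_of_coprime (n := u) (x := v)
    (hcop.coprime_dvd_right (orderOf_dvd_natCard v))
  have h1 : v ∈ Cc := by rw [← hm]; exact Cc.pow_mem (hmain v) m
  exact h1


/-- The class `2` case. -/
theorem eq_one_of_cl2_norm {Γ V : Type*} [Group Γ] [CommGroup V] [Finite V] (ρ : Γ →* MulAut V)
    (f : Γ) (hf3 : f ^ 3 = 1) (hfV : ∀ v, ρ f v = v → v = 1) (P : Subgroup Γ) [Finite P]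
    (hfP : ∀ y ∈ P, f * y * f⁻¹ ∈ P) (hcop6 : (Nat.card P).Coprime 6)
    (hcop : (Nat.card P).Coprime (Nat.card V)) (hinj : ∀ x ∈ P, ρ x = 1 → x = 1) :
    ∀ (n : ℕ) (w c : Γ), orderOf c = n → w ∈ P → c ∈ P → (w * f) ^ 3 = 1 →
      w * (f * w * f⁻¹) = c * ((f * w * f⁻¹) * w) → Commute c w → Commute c (f * w * f⁻¹) →
      Commute c f → w = 1 := by
  obtain ⟨hc2, hc3⟩ := not_dvd_of_coprime_six hcop6
  intro n
  induction n using Nat.strong_induction_on with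
  | _ n ih =>
  intro w c hn hw hc hN hrel hcw hcw1 hcf
  by_cases hc1 : c = 1
  · rw [hc1, one_mul] at hrel
    exact eq_one_of_comm_norm ρ f hf3 hfV P hfP hc3 hcop hinj w hw hN hrel
  exfalso
  obtain ⟨w1, hw1⟩ : ∃ w1, w1 = f * w * f⁻¹ := ⟨_, rfl⟩
  rw [← hw1] at hrel hcw1
  have hw1P : w1 ∈ P := by rw [hw1]; exact hfP w hw
  have hN' : w * w1 * (f * w1 * f⁻¹) = 1 := by
    have := mul_pow_three_conj w f
    rw [hN, hf3, mul_one, ← hw1] at this
    exact this.symm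
  have hw2 : f * w1 * f⁻¹ = (w * w1)⁻¹ := eq_inv_of_mul_eq_one_right hN'
  have hnP : orderOf c ∣ Nat.card P := Subgroup.orderOf_dvd_natCard P hc
  have hn0 : 0 < orderOf c := Nat.pos_of_dvd_of_pos hnP Nat.card_pos
  have hn1 : orderOf c ≠ 1 := fun h => hc1 (orderOf_eq_one_iff.1 h)
  obtain ⟨u, hu⟩ : ∃ u, u = (orderOf c).minFac := ⟨_, rfl⟩
  have hup : u.Prime := hu ▸ Nat.minFac_prime hn1
  have hun : u ∣ orderOf c := hu ▸ Nat.minFac_dvd _
  have huP : u ∣ Nat.card P := hun.trans hnP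
  have hu2 : u ≠ 2 := by rintro rfl; exact hc2 huP
  obtain ⟨k2, hk2⟩ : ∃ k2, u = 2 * k2 + 1 := by
    rcases hup.eq_two_or_odd with h | h
    · exact absurd h hu2
    · exact ⟨u / 2, by omega⟩
  have hchoose : u.choose 2 = u * k2 := by
    rw [Nat.choose_two_right, hk2]
    have : (2 * k2 + 1) * (2 * k2 + 1 - 1) = 2 * ((2 * k2 + 1) * k2) := by
      rw [Nat.add_sub_cancel]; ring
    rw [this, Nat.mul_div_cancel_left _ (by norm_num)]
  have h3c : Nat.Coprime 3 (orderOf c) :=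
    (Nat.Prime.coprime_iff_not_dvd Nat.prime_three).2 (fun hd => hc3 (hd.trans hnP))
  obtain ⟨t, ht⟩ := exists_pow_eq_self_of_coprime (n := 3) (x := c) h3c
  obtain ⟨e, he⟩ : ∃ e, e = (c ^ t) ^ (u.choose 2) := ⟨_, rfl⟩
  have he3 : e ^ 3 = c ^ (u.choose 2) := by
    rw [he, ← pow_mul, ← pow_mul]
    have : t * (u.choose 2 * 3) = (3 * t) * u.choose 2 := by ring
    rw [this, pow_mul, pow_mul, ht]
  have heP : e ∈ P := by rw [he]; exact P.pow_mem (P.pow_mem hc _) _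
  have hew : Commute e w := by rw [he]; exact (hcw.pow_left t).pow_left _
  have hew1 : Commute e w1 := by rw [he]; exact (hcw1.pow_left t).pow_left _
  have hef : Commute e f := by rw [he]; exact (hcf.pow_left t).pow_left _
  have hec : Commute e c := by rw [he]; exact ((Commute.refl c).pow_left t).pow_left _
  obtain ⟨w', hw'⟩ : ∃ w', w' = w ^ u * e⁻¹ := ⟨_, rfl⟩
  have hfe : f * e⁻¹ * f⁻¹ = e⁻¹ := by
    rw [hef.symm.inv_right.eq, mul_inv_cancel_right]
  have hw'1 : f * w' * f⁻¹ = w1 ^ u * e⁻¹ := by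
    calc f * w' * f⁻¹ = (f * w ^ u * f⁻¹) * (f * e⁻¹ * f⁻¹) := by rw [hw']; group
      _ = w1 ^ u * e⁻¹ := by rw [hfe, ← conj_pow, ← hw1]
  have hw'2 : f * (w1 ^ u * e⁻¹) * f⁻¹ = ((w * w1) ^ u)⁻¹ * e⁻¹ := by
    calc f * (w1 ^ u * e⁻¹) * f⁻¹ = (f * w1 ^ u * f⁻¹) * (f * e⁻¹ * f⁻¹) := by group
      _ = ((w * w1) ^ u)⁻¹ * e⁻¹ := by rw [hfe, ← conj_pow, hw2, inv_pow]
  have hpf := cl2_mul_pow hrel hcw hcw1 u
  have hN2 : (w' * f) ^ 3 = 1 := by
    rw [mul_pow_three_conj, hw'1, hw'2, hf3, mul_one, hw']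
    have c1 : Commute e⁻¹ (w1 ^ u) := (hew1.pow_right u).inv_left
    have c2 : Commute e⁻¹ ((w * w1) ^ u)⁻¹ := (((hew.mul_right hew1).pow_right u).inv_right).inv_left
    have c3 : Commute (c ^ (u.choose 2)) ((w * w1) ^ u)⁻¹ :=
      (((hcw.mul_right hcw1).pow_right u).inv_right).pow_left _
    calc w ^ u * e⁻¹ * (w1 ^ u * e⁻¹) * (((w * w1) ^ u)⁻¹ * e⁻¹)
        = w ^ u * (e⁻¹ * w1 ^ u) * (e⁻¹ * ((w * w1) ^ u)⁻¹) * e⁻¹ := by group
      _ = w ^ u * (w1 ^ u * e⁻¹) * (((w * w1) ^ u)⁻¹ * e⁻¹) * e⁻¹ := by rw [c1.eq, c2.eq]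
      _ = w ^ u * w1 ^ u * (e⁻¹ * ((w * w1) ^ u)⁻¹) * e⁻¹ * e⁻¹ := by group
      _ = w ^ u * w1 ^ u * (((w * w1) ^ u)⁻¹ * e⁻¹) * e⁻¹ * e⁻¹ := by rw [c2.eq]
      _ = (w ^ u * w1 ^ u) * ((w * w1) ^ u)⁻¹ * (e ^ 3)⁻¹ := by
          simp only [pow_succ, pow_zero, one_mul]; group
      _ = (w * w1) ^ u * (c ^ (u.choose 2) * ((w * w1) ^ u)⁻¹) * (c ^ (u.choose 2))⁻¹ := by
          rw [← hpf, he3]; group
      _ = 1 := by rw [c3.eq]; group
  have hr1 : w ^ u * w1 = c ^ u * (w1 * w ^ u) := cl2_pow_left hrel hcw u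
  have hr2 : w ^ u * w1 ^ u = (c ^ u) ^ u * (w1 ^ u * w ^ u) :=
    cl2_pow_right hr1 (hcw1.pow_left u) u
  have hrel' : w' * (f * w' * f⁻¹) = (c ^ u) ^ u * ((f * w' * f⁻¹) * w') := by
    rw [hw'1, hw']
    have c1 : Commute e⁻¹ (w1 ^ u) := (hew1.pow_right u).inv_left
    have c2 : Commute e⁻¹ (w ^ u) := (hew.pow_right u).inv_left
    calc w ^ u * e⁻¹ * (w1 ^ u * e⁻¹) = w ^ u * (e⁻¹ * w1 ^ u) * e⁻¹ := by group
      _ = (w ^ u * w1 ^ u) * e⁻¹ * e⁻¹ := by rw [c1.eq]; group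
      _ = (c ^ u) ^ u * (w1 ^ u * (w ^ u * e⁻¹) * e⁻¹) := by rw [hr2]; group
      _ = (c ^ u) ^ u * (w1 ^ u * (e⁻¹ * w ^ u) * e⁻¹) := by rw [c2.eq]
      _ = (c ^ u) ^ u * (w1 ^ u * e⁻¹ * (w ^ u * e⁻¹)) := by group
  have hord : orderOf ((c ^ u) ^ u) < n := by
    rw [← pow_mul, orderOf_pow' c (Nat.mul_ne_zero hup.ne_zero hup.ne_zero), ← hn]
    apply Nat.div_lt_self hn0
    have h1 : u ∣ Nat.gcd (orderOf c) (u * u) := Nat.dvd_gcd hun (Dvd.intro _ rfl)
    have h2 : 0 < Nat.gcd (orderOf c) (u * u) := Nat.gcd_pos_of_pos_left _ hn0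
    exact lt_of_lt_of_le hup.one_lt (Nat.le_of_dvd h2 h1)
  have hw'P : w' ∈ P := by rw [hw']; exact P.mul_mem (P.pow_mem hw u) (P.inv_mem heP)
  have hcc : ∀ z, Commute c z → Commute ((c ^ u) ^ u) z := fun z hz => (hz.pow_left u).pow_left u
  have hw'1' : w' = 1 := by
    refine ih _ hord w' ((c ^ u) ^ u) rfl hw'P (P.pow_mem (P.pow_mem hc u) u) hN2 hrel'
      (hcc _ ?_) (hcc _ ?_) (hcc _ hcf)
    · rw [hw']; exact (hcw.pow_right u).mul_right hec.symm.inv_right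
    · rw [hw'1]; exact (hcw1.pow_right u).mul_right hec.symm.inv_right
  have hwe : w ^ u = e := by
    rw [hw'] at hw'1'
    exact mul_inv_eq_one.1 hw'1'
  have hcu : c ^ u = 1 := by
    rw [hwe, hew1.eq] at hr1
    exact (mul_eq_right.1 hr1.symm)
  have he1 : e = 1 := by
    rw [he, hchoose, ← pow_mul, mul_comm, mul_assoc, pow_mul, hcu, one_pow]
  have hwu : w ^ u = 1 := hwe.trans he1
  obtain ⟨x, -, hx⟩ := exists_conj_of_pow P f (w * f) 3 Nat.prime_three hfP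
    (by rw [mul_inv_cancel_right]; exact hw) hf3 hN hc3
  have hρc := cl2_prime_trivial ρ f w c u hup (norm3_eq_one ρ f hf3 hfV)
    (norm3_eq_one ρ (w * f) hN (hx ▸ fpf_conj ρ f x hfV)) (by rw [← hw1]; exact hrel) hcw
    (by rw [← hw1]; exact hcw1) hwu hcu (hcop.coprime_dvd_left huP)
  exact hc1 (hinj c hc hρc)

/-- **Lemma F3.** An element `f` with `f ^ 3 = 1` acting fixed-point-freely on `V` centralizes every
solvable `f`-invariant subgroup `P` of order prime to `6 |V|` acting faithfully on `V`. -/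
theorem fpf3_centralizes {Γ V : Type*} [Group Γ] [CommGroup V] [Finite V] (ρ : Γ →* MulAut V)
    (f : Γ) (hf3 : f ^ 3 = 1) (hfV : ∀ v, ρ f v = v → v = 1) :
    ∀ (n : ℕ) (P : Subgroup Γ) [Finite P], Nat.card P = n → (∀ y ∈ P, f * y * f⁻¹ ∈ P) →
      Group.IsSolvable P → (Nat.card P).Coprime 6 → (Nat.card P).Coprime (Nat.card V) →
      (∀ x ∈ P, ρ x = 1 → x = 1) → ∀ g ∈ P, f * g = g * f := by
  intro n
  induction n using Nat.strong_induction_on with
  | _ n ih =>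
  intro P _ hPn hfP hsol hcop6 hcop hinj g hg
  by_cases hPne : P = ⊥
  · rw [hPne, Subgroup.mem_bot] at hg
    rw [hg, mul_one, one_mul]
  obtain ⟨D, hD⟩ : ∃ D : Subgroup Γ, D = ⁅P, P⁆ := ⟨_, rfl⟩
  have hDP : D ≤ P := by rw [hD]; exact commutator_self_le P
  have hDlt : D < P := lt_of_le_of_ne hDP (by rw [hD]; exact commutator_self_ne P hPne hsol)
  have hfD : ∀ d ∈ D, f * d = d * f := by
    have : Finite D := Finite.of_injective _ (Subgroup.inclusion_injective hDP)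
    have hcard : Nat.card D < n := hPn ▸ card_lt_of_lt hDlt
    exact ih _ hcard D rfl (by rw [hD]; exact conj_mem_commutator P f hfP)
      (Group.isSolvable_of_isSolvable_injective (Subgroup.inclusion_injective hDP))
      (hcop6.coprime_dvd_left (Subgroup.card_dvd_of_le hDP))
      (hcop.coprime_dvd_left (Subgroup.card_dvd_of_le hDP)) (fun y hy => hinj y (hDP hy))
  obtain ⟨y, hy⟩ : ∃ y, y = g * f * g⁻¹ * f⁻¹ := ⟨_, rfl⟩
  have hyP : y ∈ P := by
    have : y = g * (f * g⁻¹ * f⁻¹) := by rw [hy]; group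
    rw [this]; exact P.mul_mem hg (hfP _ (P.inv_mem hg))
  have hyN : (y * f) ^ 3 = 1 := by
    have : y * f = g * f * g⁻¹ := by rw [hy]; group
    rw [this, conj_pow, hf3]; group
  have hfD' : ∀ d ∈ D, f * d * f⁻¹ = d := fun d hd => mul_inv_eq_iff_eq_mul.2 (hfD d hd)
  have hfD'' : ∀ d ∈ D, f⁻¹ * d * f = d := by
    intro d hd
    rw [mul_assoc, ← hfD d hd]; group
  have hyD : ∀ d ∈ D, y * d * y⁻¹ = d := by
    intro d hd
    have h1 : g⁻¹ * d * g ∈ D := by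
      rw [hD] at hd ⊢
      have := conj_mem_commutator P g⁻¹
        (fun x hx => P.mul_mem (P.mul_mem (P.inv_mem hg) hx) (P.inv_mem (P.inv_mem hg))) d hd
      simpa using this
    calc y * d * y⁻¹ = g * f * g⁻¹ * (f⁻¹ * d * f) * g * f⁻¹ * g⁻¹ := by rw [hy]; group
      _ = g * (f * (g⁻¹ * d * g) * f⁻¹) * g⁻¹ := by rw [hfD'' d hd]; group
      _ = d := by rw [hfD' _ h1]; group
  have hy1D : ∀ d ∈ D, (f * y * f⁻¹) * d * (f * y * f⁻¹)⁻¹ = d := by
    intro d hd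
    calc (f * y * f⁻¹) * d * (f * y * f⁻¹)⁻¹ = f * (y * (f⁻¹ * d * f) * y⁻¹) * f⁻¹ := by group
      _ = d := by rw [hfD'' d hd, hyD d hd, hfD' d hd]
  obtain ⟨c, hc⟩ : ∃ c, c = y * (f * y * f⁻¹) * y⁻¹ * (f * y * f⁻¹)⁻¹ := ⟨_, rfl⟩
  have hcD : c ∈ D := by
    rw [hc, hD, ← commutatorElement_def]
    exact Subgroup.commutator_mem_commutator hyP (hfP y hyP)
  have hy1 := eq_one_of_cl2_norm ρ f hf3 hfV P hfP hcop6 hcop hinj _ y c rfl hyP (hDP hcD) hyN
    (by rw [hc]; group) (mul_inv_eq_iff_eq_mul.1 (hyD c hcD)).symm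
    (mul_inv_eq_iff_eq_mul.1 (hy1D c hcD)).symm (hfD c hcD).symm
  rw [hy] at hy1
  have h2 : g * f * g⁻¹ = f := mul_inv_eq_one.1 hy1
  exact (mul_inv_eq_iff_eq_mul.1 h2).symm

end Cfsg.Agent.Lib.Helper74
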