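import Cfsg.Agent.Lib.Helper74.S3B
import Cfsg.Agent.Lib.Helper74.S3C

set_option autoImplicit false

namespace Cfsg.Agent.Lib.Helper74

open Finset

section

variable {Γ V : Type*} [Group Γ] [CommGroup V] (ρ : Γ →* MulAut V) (U : Subgroup Γ)

/-- The fixed points of `[U, a]` on `V`. -/
def Vc (a : Γ) : Subgroup V where
  carrier := {v | ∀ u ∈ U, ρ (u * a * u⁻¹ * a⁻¹) v = v}
  mul_mem' := fun {x y} hx hy u hu => by rw [map_mul, hx u hu, hy u hu]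
  one_mem' := fun u _ => map_one _
  inv_mem' := fun {x} hx u hu => by rw [map_inv, hx u hu]

theorem mem_Vc {a : Γ} {v : V} : v ∈ Vc ρ U a ↔ ∀ u ∈ U, ρ (u * a * u⁻¹ * a⁻¹) v = v := Iff.rfl

theorem comm_mem_of_normal [hU : U.Normal] {u : Γ} (hu : u ∈ U) (a : Γ) :
    u * a * u⁻¹ * a⁻¹ ∈ U := by
  have : u * a * u⁻¹ * a⁻¹ = u * (a * u⁻¹ * a⁻¹) := by group
  rw [this]; exact U.mul_mem hu (hU.conj_mem _ (U.inv_mem hu) a)

theorem rho_mem_Vc_conj [hU : U.Normal] {a : Γ} {v : V} (hv : v ∈ Vc ρ U a) (γ : Γ) :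
    ρ γ v ∈ Vc ρ U (γ * a * γ⁻¹) := by
  intro u hu
  have h1 : γ⁻¹ * u * γ ∈ U := by
    have := hU.conj_mem u hu γ⁻¹; simpa using this
  have h2 := hv _ h1
  rw [← rho_mul_apply]
  have : u * (γ * a * γ⁻¹) * u⁻¹ * (γ * a * γ⁻¹)⁻¹ * γ
      = γ * (γ⁻¹ * u * γ * a * (γ⁻¹ * u * γ)⁻¹ * a⁻¹) := by group
  rw [this, rho_mul_apply, h2]

theorem rho_mem_Vc_of_mem [hU : U.Normal] (hUab : ∀ a ∈ U, ∀ b ∈ U, a * b = b * a) {a : Γ} {v : V}
    (hv : v ∈ Vc ρ U a) {u0 : Γ} (hu0 : u0 ∈ U) : ρ u0 v ∈ Vc ρ U a := by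
  intro u hu
  rw [← rho_mul_apply, hUab _ (comm_mem_of_normal U hu a) _ hu0, rho_mul_apply, hv u hu]

/-- The elements `t` with `v ∈ Vc t` form a subgroup. -/
theorem exists_subgroup_Vc [Finite Γ] [hU : U.Normal] (v : V) :
    ∃ T : Subgroup Γ, ∀ t, t ∈ T ↔ v ∈ Vc ρ U t := by
  have hone : v ∈ Vc ρ U 1 := by
    intro u _
    have : u * 1 * u⁻¹ * 1⁻¹ = 1 := by group
    rw [this, map_one, MulAut.one_apply]
  have hmul : ∀ t s, v ∈ Vc ρ U t → v ∈ Vc ρ U s → v ∈ Vc ρ U (t * s) := by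
    intro t s ht hs u hu
    obtain ⟨z, hz⟩ : ∃ z, z = u * s * u⁻¹ * s⁻¹ := ⟨_, rfl⟩
    have hzU : z ∈ U := by rw [hz]; exact comm_mem_of_normal U hu s
    have hzv : ρ z v = v := by rw [hz]; exact hs u hu
    have h1 := ht _ (U.inv_mem hzU)
    have : u * (t * s) * u⁻¹ * (t * s)⁻¹
        = (u * t * u⁻¹ * t⁻¹) * (z * (z⁻¹ * t * z⁻¹⁻¹ * t⁻¹)) := by rw [hz]; group
    rw [this, rho_mul_apply ρ (u * t * u⁻¹ * t⁻¹), rho_mul_apply ρ z, h1, hzv, ht u hu]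
  have hpow : ∀ t, v ∈ Vc ρ U t → ∀ k : ℕ, v ∈ Vc ρ U (t ^ k) := by
    intro t ht k
    induction k with
    | zero => rw [pow_zero]; exact hone
    | succ k ih => rw [pow_succ]; exact hmul _ _ ih ht
  refine ⟨{ carrier := {t | v ∈ Vc ρ U t}
            mul_mem' := fun {a b} ha hb => hmul a b ha hb
            one_mem' := hone
            inv_mem' := fun {a} ha => ?_ }, fun t => Iff.rfl⟩
  have h1 : a⁻¹ = a ^ (orderOf a - 1) := by
    apply inv_eq_of_mul_eq_one_right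
    rw [← pow_succ', Nat.sub_add_cancel (orderOf_pos a), pow_orderOf_eq_one]
  change v ∈ Vc ρ U a⁻¹
  rw [h1]
  exact hpow a ha _

theorem Vc_inv [Finite Γ] [hU : U.Normal] (a : Γ) : Vc ρ U a⁻¹ = Vc ρ U a := by
  ext v
  obtain ⟨T, hT⟩ := exists_subgroup_Vc ρ U v
  rw [← hT, ← hT, inv_mem_iff]

variable [Fintype U]

/-- (A multiple of) the projection onto `Vc b`. -/
def Qh (b : Γ) : V →* V where
  toFun v := ∏ u : U, ρ ((u : Γ) * b * (u : Γ)⁻¹ * b⁻¹) v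
  map_one' := by simp
  map_mul' := fun x y => by simp [Finset.prod_mul_distrib]

theorem Qh_apply (b : Γ) (v : V) : Qh ρ U b v = ∏ u : U, ρ ((u : Γ) * b * (u : Γ)⁻¹ * b⁻¹) v := rfl

theorem Qh_mem [hU : U.Normal] (hUab : ∀ a ∈ U, ∀ b ∈ U, a * b = b * a) (b : Γ) (v : V) :
    Qh ρ U b v ∈ Vc ρ U b := by
  intro u' hu'
  rw [Qh_apply, map_prod]
  refine Fintype.prod_equiv (Equiv.mulLeft (⟨u', hu'⟩ : U)) _ _ ?_
  intro u
  rw [← rho_mul_apply]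
  congr 2
  change _ = u' * (u : Γ) * b * (u' * (u : Γ))⁻¹ * b⁻¹
  have hx : b * u'⁻¹ * b⁻¹ ∈ U := hU.conj_mem _ (U.inv_mem hu') b
  have hy : (u : Γ) * (b * (u : Γ)⁻¹ * b⁻¹) ∈ U :=
    U.mul_mem u.2 (hU.conj_mem _ (U.inv_mem u.2) b)
  calc u' * b * u'⁻¹ * b⁻¹ * ((u : Γ) * b * (u : Γ)⁻¹ * b⁻¹)
      = u' * ((b * u'⁻¹ * b⁻¹) * ((u : Γ) * (b * (u : Γ)⁻¹ * b⁻¹))) := by group
    _ = u' * (((u : Γ) * (b * (u : Γ)⁻¹ * b⁻¹)) * (b * u'⁻¹ * b⁻¹)) := by rw [hUab _ hx _ hy]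
    _ = u' * (u : Γ) * b * (u' * (u : Γ))⁻¹ * b⁻¹ := by group

theorem Qh_of_mem {b : Γ} {v : V} (hv : v ∈ Vc ρ U b) : Qh ρ U b v = v ^ Fintype.card U := by
  rw [Qh_apply, prod_congr rfl (fun (u : U) _ => hv u u.2), prod_const, card_univ]

theorem Qh_mem_of_inv [hU : U.Normal] (Z : Subgroup V) (hZ : ∀ u ∈ U, ∀ z ∈ Z, ρ u z ∈ Z) (b : Γ)
    {z : V} (hz : z ∈ Z) : Qh ρ U b z ∈ Z := by
  rw [Qh_apply]
  exact Subgroup.prod_mem _ fun u _ => hZ _ (comm_mem_of_normal U u.2 b) z hz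

theorem Ph_mem [hU : U.Normal] (hUab : ∀ a ∈ U, ∀ b ∈ U, a * b = b * a) (a : Γ) (w : V) :
    ∏ u : U, ρ ((u : Γ) * a * (u : Γ)⁻¹) w ∈ Vc ρ U a := by
  intro u' hu'
  rw [map_prod]
  refine Fintype.prod_equiv (Equiv.mulLeft (⟨u', hu'⟩ : U)) _ _ ?_
  intro u
  rw [← rho_mul_apply]
  congr 2
  change _ = u' * (u : Γ) * a * (u' * (u : Γ))⁻¹
  have hx : a * u'⁻¹ * a⁻¹ ∈ U := hU.conj_mem _ (U.inv_mem hu') a
  calc u' * a * u'⁻¹ * a⁻¹ * ((u : Γ) * a * (u : Γ)⁻¹)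
      = u' * ((a * u'⁻¹ * a⁻¹) * (u : Γ)) * a * (u : Γ)⁻¹ := by group
    _ = u' * ((u : Γ) * (a * u'⁻¹ * a⁻¹)) * a * (u : Γ)⁻¹ := by rw [hUab _ hx _ u.2]
    _ = u' * (u : Γ) * a * (u'⁻¹ * (u : Γ)⁻¹) := by group
    _ = u' * (u : Γ) * a * ((u : Γ)⁻¹ * u'⁻¹) := by
        rw [hUab _ (U.inv_mem hu') _ (U.inv_mem u.2)]
    _ = u' * (u : Γ) * a * (u' * (u : Γ))⁻¹ := by group

end

/-- Abstract computation with the projections. -/
theorem absQ {V ι : Type*} [CommGroup V] [Fintype ι] [DecidableEq ι] (W : ι → Subgroup V)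
    (Q : ι → V →* V) (n : ℕ) (hQW : ∀ i v, Q i v ∈ W i) (hQn : ∀ i, ∀ v ∈ W i, Q i v = v ^ n)
    (hQpres : ∀ i j, ∀ v ∈ W j, Q i v ∈ W j)
    (hdisj : ∀ i j, i ≠ j → ∀ v ∈ W i, v ∈ W j → v = 1)
    (x : ι → V) (hx : ∀ i, x i ∈ W i) (c : ι) : Q c (∏ i, x i) = x c ^ n := by
  rw [map_prod, Finset.prod_eq_single c, hQn c _ (hx c)]
  · intro b _ hbc
    exact hdisj c b hbc.symm _ (hQW c _) (hQpres c b _ (hx b))
  · intro h; exact absurd (mem_univ c) h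

theorem eq_one_of_pow_coprime {V : Type*} [Group V] [Finite V] {n : ℕ}
    (hn : n.Coprime (Nat.card V)) {v : V} (h : v ^ n = 1) : v = 1 := by
  obtain ⟨m, hm⟩ := exists_pow_eq_self_of_coprime (n := n) (x := v)
    (hn.coprime_dvd_right (orderOf_dvd_natCard v))
  rw [← hm, h, one_pow]

theorem mem_of_pow_mem_coprime {V : Type*} [Group V] [Finite V] {n : ℕ}
    (hn : n.Coprime (Nat.card V)) (Z : Subgroup V) {v : V} (h : v ^ n ∈ Z) : v ∈ Z := by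
  obtain ⟨m, hm⟩ := exists_pow_eq_self_of_coprime (n := n) (x := v)
    (hn.coprime_dvd_right (orderOf_dvd_natCard v))
  rw [← hm]; exact Z.pow_mem h m


theorem S3Rel.norm6_eq_one {Γ V : Type*} [Group Γ] [CommGroup V] {f h : Γ} (r : S3Rel f h)
    (ρ : Γ →* MulAut V) (hfpf : ∀ v, ρ f v = v → ρ h v = v → v = 1) (w : V) :
    w * ρ f w * ρ f⁻¹ w * ρ h w * ρ (f * h) w * ρ (f⁻¹ * h) w = 1 := by
  have e1 : f * (f * h) = f⁻¹ * h := by rw [← mul_assoc, r.ff]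
  have e2 : h * (f * h) = f⁻¹ := by rw [← mul_assoc, r.hf, mul_assoc, r.hh, mul_one]
  have e3 : h * (f⁻¹ * h) = f := by rw [← mul_assoc, r.hfinv, mul_assoc, r.hh, mul_one]
  have hm : ∀ (g : Γ) (a b c d e k : V), ρ g (a * b * c * d * e * k)
      = ρ g a * ρ g b * ρ g c * ρ g d * ρ g e * ρ g k := by
    intros; simp only [map_mul]
  apply hfpf
  · rw [hm]
    simp only [← rho_mul_apply]
    rw [r.ff, mul_inv_cancel, e1, mul_inv_cancel_left, map_one, MulAut.one_apply]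
    simp only [mul_comm, mul_left_comm]
  · rw [hm]
    simp only [← rho_mul_apply]
    rw [r.hf, r.hfinv, r.hh, e2, e3, map_one, MulAut.one_apply]
    simp only [mul_comm, mul_left_comm]

theorem fpf_pair_conj {Γ V : Type*} [Group Γ] [CommGroup V] (ρ : Γ →* MulAut V) (f h x : Γ)
    (hfpf : ∀ v, ρ f v = v → ρ h v = v → v = 1) :
    ∀ v, ρ (x * f * x⁻¹) v = v → ρ (x * h * x⁻¹) v = v → v = 1 := by
  intro v hv1 hv2
  have key : ∀ e : Γ, ρ (x * e * x⁻¹) v = v → ρ e (ρ x⁻¹ v) = ρ x⁻¹ v := by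
    intro e hv
    have h2 : ρ x⁻¹ (ρ (x * e * x⁻¹) v) = ρ x⁻¹ v := by rw [hv]
    rw [← rho_mul_apply] at h2
    rw [← rho_mul_apply]
    have h3 : x⁻¹ * (x * e * x⁻¹) = e * x⁻¹ := by group
    rwa [h3] at h2
  have h3 := hfpf _ (key f hv1) (key h hv2)
  have h4 : ρ x (ρ x⁻¹ v) = ρ x 1 := by rw [h3]
  rw [← rho_mul_apply, mul_inv_cancel, map_one, map_one] at h4
  simpa using h4

theorem fpf_pair_conj_sub {Γ : Type*} [Group Γ] (X : Subgroup Γ) [hX : X.Normal] (f h x : Γ)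
    (hfpf : ∀ y ∈ X, f * y = y * f → h * y = y * h → y = 1) :
    ∀ y ∈ X, (x * f * x⁻¹) * y = y * (x * f * x⁻¹) → (x * h * x⁻¹) * y = y * (x * h * x⁻¹) →
      y = 1 := by
  intro g hg hc1 hc2
  have h1 : x⁻¹ * g * x ∈ X := by
    have := hX.conj_mem g hg x⁻¹; simpa using this
  have key : ∀ s : Γ, (x * s * x⁻¹) * g = g * (x * s * x⁻¹) →
      s * (x⁻¹ * g * x) = (x⁻¹ * g * x) * s := by
    intro s hcomm
    calc s * (x⁻¹ * g * x) = x⁻¹ * ((x * s * x⁻¹) * g) * x := by group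
      _ = x⁻¹ * (g * (x * s * x⁻¹)) * x := by rw [hcomm]
      _ = (x⁻¹ * g * x) * s := by group
  have h3 := hfpf _ h1 (key f hc1) (key h hc2)
  have : g = x * (x⁻¹ * g * x) * x⁻¹ := by group
  rw [this, h3]; group

/-- If the subgroup `T` of all `t` with `v ∈ Vc t` covers `⟨f, h⟩` modulo `M`, then `U` fixes `v`. -/
theorem S3Rel.fixed_of_cover {Γ V : Type*} [Group Γ] [Finite Γ] [CommGroup V] {f h : Γ}
    (r : S3Rel f h) (ρ : Γ →* MulAut V) (M U : Subgroup Γ) [hM : M.Normal] [hU : U.Normal]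
    (hUM : U ≤ M) (hcopM : (Nat.card M).Coprime 6)
    (hfpfU : ∀ y ∈ U, f * y = y * f → h * y = y * h → y = 1) (v : V) (T : Subgroup Γ)
    (hT : ∀ t, t ∈ T ↔ v ∈ Vc ρ U t) (hf : f ∈ M ⊔ T) (hh : h ∈ M ⊔ T) :
    ∀ u ∈ U, ρ u v = v := by
  obtain ⟨m1, hm1, ef, hef, hfe⟩ := Subgroup.mem_sup_of_normal_left.1 hf
  obtain ⟨m2, hm2, eh, heh, hhe⟩ := Subgroup.mem_sup_of_normal_left.1 hh
  obtain ⟨x, -, hxf, hxh⟩ := r.exists_conj_pair M hcopM T ef eh hef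
    (by rw [← hfe]; simpa using hm1) heh (by rw [← hhe]; simpa using hm2)
  let S : Subgroup Γ :=
    { carrier := {u | u ∈ U ∧ ρ u v = v}
      mul_mem' := fun {a b} ha hb => ⟨U.mul_mem ha.1 hb.1, by rw [rho_mul_apply, hb.2, ha.2]⟩
      one_mem' := ⟨U.one_mem, by rw [map_one, MulAut.one_apply]⟩
      inv_mem' := fun {a} ha => ⟨U.inv_mem ha.1, rho_inv_apply_eq ρ a v ha.2⟩ }
  have hSU : S ≤ U := fun u hu => hu.1
  have htriv : ∀ e ∈ T, ∀ u ∈ U, u⁻¹ * (e * u * e⁻¹) ∈ S := by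
    intro e he u hu
    have h1 := (hT e).1 he _ (U.inv_mem hu)
    have e1 : u⁻¹ * (e * u * e⁻¹) = u⁻¹ * e * u⁻¹⁻¹ * e⁻¹ := by group
    rw [e1]
    exact ⟨comm_mem_of_normal U (U.inv_mem hu) e, h1⟩
  have hinv : ∀ e ∈ T, ∀ y ∈ S, e * y * e⁻¹ ∈ S := by
    intro e he y hy
    have : e * y * e⁻¹ = y * (y⁻¹ * (e * y * e⁻¹)) := by group
    rw [this]; exact S.mul_mem hy (htriv e he y (hSU hy))
  intro u hu
  have := (r.conj x).mem_of_comm_mem U S hSU (hinv _ hxf) (hinv _ hxh)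
    (hcopM.coprime_dvd_left ((Subgroup.card_dvd_of_le hSU).trans (Subgroup.card_dvd_of_le hUM)))
    (fpf_pair_conj_sub U f h x hfpfU) u hu (htriv _ hxf u hu) (htriv _ hxh u hu)
  exact this.2

/-- Representatives of the four classes of subgroups of prime order of `⟨f, h⟩`. -/
def el {Γ : Type*} [Group Γ] (f h : Γ) : Fin 4 → Γ
  | 0 => f
  | 1 => h
  | 2 => f * h
  | 3 => f⁻¹ * h

theorem S3Rel.gen_of_two {Γ : Type*} [Group Γ] {f h : Γ} (r : S3Rel f h) (H : Subgroup Γ) :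
    ∀ i j : Fin 4, i ≠ j → el f h i ∈ H → el f h j ∈ H → f ∈ H ∧ h ∈ H := by
  have c01 : f ∈ H → h ∈ H → f ∈ H ∧ h ∈ H := fun a b => ⟨a, b⟩
  have c02 : f ∈ H → f * h ∈ H → f ∈ H ∧ h ∈ H := fun a b =>
    ⟨a, by have := H.mul_mem (H.inv_mem a) b; rwa [inv_mul_cancel_left] at this⟩
  have c03 : f ∈ H → f⁻¹ * h ∈ H → f ∈ H ∧ h ∈ H := fun a b =>
    ⟨a, by have := H.mul_mem a b; rwa [mul_inv_cancel_left] at this⟩
  have c12 : h ∈ H → f * h ∈ H → f ∈ H ∧ h ∈ H := fun a b =>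
    ⟨by have := H.mul_mem b (H.inv_mem a); rwa [mul_inv_cancel_right] at this, a⟩
  have c13 : h ∈ H → f⁻¹ * h ∈ H → f ∈ H ∧ h ∈ H := fun a b =>
    ⟨by have := H.mul_mem b (H.inv_mem a)
        rw [mul_inv_cancel_right] at this
        exact (inv_mem_iff).1 this, a⟩
  have c23 : f * h ∈ H → f⁻¹ * h ∈ H → f ∈ H ∧ h ∈ H := fun a b => by
    have h1 := H.mul_mem a (H.inv_mem b)
    have e : f * h * (f⁻¹ * h)⁻¹ = f * f := by group
    rw [e, r.ff] at h1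
    exact c02 ((inv_mem_iff).1 h1) a
  intro i j
  fin_cases i <;> fin_cases j <;> intro hij hi hj <;>
  first
  | exact absurd rfl hij
  | exact c01 hi hj
  | exact c01 hj hi
  | exact c02 hi hj
  | exact c02 hj hi
  | exact c03 hi hj
  | exact c03 hj hi
  | exact c12 hi hj
  | exact c12 hj hi
  | exact c13 hi hj
  | exact c13 hj hi
  | exact c23 hi hj
  | exact c23 hj hi


/-- The decomposition of `V` with respect to the abelian normal subgroup `U`. -/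
theorem S3Rel.decomp {Γ V : Type*} [Group Γ] [Finite Γ] [CommGroup V] [Finite V] {f h : Γ}
    (r : S3Rel f h) (ρ : Γ →* MulAut V) (M U : Subgroup Γ) [hM : M.Normal] [hU : U.Normal]
    (hUM : U ≤ M) (hUab : ∀ a ∈ U, ∀ b ∈ U, a * b = b * a) (hcopM : (Nat.card M).Coprime 6)
    (hcopUV : (Nat.card U).Coprime (Nat.card V))
    (hfpfU : ∀ y ∈ U, f * y = y * f → h * y = y * h → y = 1)
    (hfpfV : ∀ v, ρ f v = v → ρ h v = v → v = 1)
    (hCU : ∀ v, (∀ u ∈ U, ρ u v = v) → v = 1) :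
    (∀ i, ∀ m ∈ M, ∀ v ∈ Vc ρ U (el f h i), ρ m v ∈ Vc ρ U (el f h i)) ∧
    (∀ x : Fin 4 → V, (∀ i, x i ∈ Vc ρ U (el f h i)) → ∏ i, x i = 1 → ∀ i, x i = 1) ∧
    (∀ v, ∃ x : Fin 4 → V, (∀ i, x i ∈ Vc ρ U (el f h i)) ∧ v ^ Nat.card U = ∏ i, x i) := by
  classical
  let _ := Fintype.ofFinite U
  have hcard : Fintype.card U = Nat.card U := (Nat.card_eq_fintype_card).symm
  have hcop' : (Fintype.card U).Coprime (Nat.card V) := hcard ▸ hcopUV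
  have hdisjE : ∀ i j, i ≠ j → ∀ e : Γ, e * (el f h i)⁻¹ ∈ M → ∀ v, v ∈ Vc ρ U e →
      v ∈ Vc ρ U (el f h j) → v = 1 := by
    intro i j hij e he v hv1 hv2
    obtain ⟨T, hT⟩ := exists_subgroup_Vc ρ U v
    have h1 : el f h i ∈ M ⊔ T := by
      have : el f h i = (e * (el f h i)⁻¹)⁻¹ * e := by group
      rw [this]
      exact Subgroup.mul_mem_sup (M.inv_mem he) ((hT e).2 hv1)
    have h2 : el f h j ∈ M ⊔ T := (le_sup_right : T ≤ M ⊔ T) ((hT _).2 hv2)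
    obtain ⟨h3, h4⟩ := r.gen_of_two (M ⊔ T) i j hij h1 h2
    exact hCU v (r.fixed_of_cover ρ M U hUM hcopM hfpfU v T hT h3 h4)
  have hdisj : ∀ i j, i ≠ j → ∀ v ∈ Vc ρ U (el f h i), v ∈ Vc ρ U (el f h j) → v = 1 :=
    fun i j hij v hv1 hv2 => hdisjE i j hij _ (by rw [mul_inv_cancel]; exact M.one_mem) v hv1 hv2
  have hQ := absQ (fun i => Vc ρ U (el f h i)) (fun i => Qh ρ U (el f h i)) (Fintype.card U)
    (fun i v => Qh_mem ρ U hUab _ v) (fun i v hv => Qh_of_mem ρ U hv)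
    (fun i j v hv => Qh_mem_of_inv ρ U _ (fun u hu z hz => rho_mem_Vc_of_mem ρ U hUab hz hu) _ hv)
    hdisj
  have hspan : ∀ v, ∃ x : Fin 4 → V, (∀ i, x i ∈ Vc ρ U (el f h i)) ∧
      v ^ Nat.card U = ∏ i, x i := by
    intro v
    have hnorm : ∀ u : U, v * ρ ((u : Γ) * f * (u : Γ)⁻¹) v * ρ ((u : Γ) * f⁻¹ * (u : Γ)⁻¹) v
        * ρ ((u : Γ) * h * (u : Γ)⁻¹) v * ρ ((u : Γ) * (f * h) * (u : Γ)⁻¹) v
        * ρ ((u : Γ) * (f⁻¹ * h) * (u : Γ)⁻¹) v = 1 := by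
      intro u
      have := (r.conj (u : Γ)).norm6_eq_one ρ (fpf_pair_conj ρ f h u hfpfV) v
      have e1 : ((u : Γ) * f * (u : Γ)⁻¹)⁻¹ = (u : Γ) * f⁻¹ * (u : Γ)⁻¹ := by group
      have e2 : ((u : Γ) * f * (u : Γ)⁻¹) * ((u : Γ) * h * (u : Γ)⁻¹)
          = (u : Γ) * (f * h) * (u : Γ)⁻¹ := by group
      have e3 : ((u : Γ) * f⁻¹ * (u : Γ)⁻¹) * ((u : Γ) * h * (u : Γ)⁻¹)
          = (u : Γ) * (f⁻¹ * h) * (u : Γ)⁻¹ := by group
      rwa [e1, e2, e3] at this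
    have hprod := Finset.prod_eq_one (s := (Finset.univ : Finset U)) (fun u _ => hnorm u)
    simp only [Finset.prod_mul_distrib, prod_const, card_univ] at hprod
    have m0 := Ph_mem ρ U hUab f v
    have m0' := Ph_mem ρ U hUab f⁻¹ v
    rw [Vc_inv] at m0'
    have m1 := Ph_mem ρ U hUab h v
    have m2 := Ph_mem ρ U hUab (f * h) v
    have m3 := Ph_mem ρ U hUab (f⁻¹ * h) v
    refine ⟨![((∏ u : U, ρ ((u : Γ) * f * (u : Γ)⁻¹) v) * ∏ u : U, ρ ((u : Γ) * f⁻¹ * (u : Γ)⁻¹) v)⁻¹,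
      (∏ u : U, ρ ((u : Γ) * h * (u : Γ)⁻¹) v)⁻¹, (∏ u : U, ρ ((u : Γ) * (f * h) * (u : Γ)⁻¹) v)⁻¹,
      (∏ u : U, ρ ((u : Γ) * (f⁻¹ * h) * (u : Γ)⁻¹) v)⁻¹], ?_, ?_⟩
    · intro i
      fin_cases i
      · exact Subgroup.inv_mem _ (Subgroup.mul_mem _ m0 m0')
      · exact Subgroup.inv_mem _ m1
      · exact Subgroup.inv_mem _ m2
      · exact Subgroup.inv_mem _ m3
    · rw [Fin.prod_univ_four, ← hcard]
      simp only [Matrix.cons_val_zero, Matrix.cons_val_one, Matrix.cons_val]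
      rw [← mul_inv_eq_one]
      refine Eq.trans ?_ hprod
      simp only [mul_inv_rev, inv_inv]
      simp only [mul_comm, mul_left_comm, mul_assoc]
  refine ⟨?_, ?_, hspan⟩
  · intro a m hm v hv
    have h1 := rho_mem_Vc_conj ρ U hv m
    obtain ⟨z, hz⟩ : ∃ z, z = ρ m v := ⟨_, rfl⟩
    rw [← hz] at h1 ⊢
    have he : m * el f h a * m⁻¹ * (el f h a)⁻¹ ∈ M := comm_mem_of_normal M hm _
    obtain ⟨x, hx, hxz⟩ := hspan z
    have hxc : ∀ c, c ≠ a → x c = 1 := by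
      intro c hca
      have h2 : Qh ρ U (el f h c) z = 1 :=
        hdisjE a c hca.symm _ he _
          (Qh_mem_of_inv ρ U _ (fun u hu z hz => rho_mem_Vc_of_mem ρ U hUab hz hu) _ h1)
          (Qh_mem ρ U hUab _ z)
      have h3 := hQ x hx c
      rw [← hxz, map_pow] at h3
      change (Qh ρ U (el f h c) z) ^ _ = _ at h3
      rw [h2, one_pow] at h3
      exact eq_one_of_pow_coprime hcop' h3.symm
    have h4 : z ^ Nat.card U = x a := by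
      rw [hxz, Finset.prod_eq_single a (fun b _ hb => hxc b hb) (by simp)]
    exact mem_of_pow_mem_coprime hcopUV _ (h4 ▸ hx a)
  · intro x hx hprod i
    have h3 := hQ x hx i
    rw [hprod, map_one] at h3
    exact eq_one_of_pow_coprime hcop' h3.symm

end Cfsg.Agent.Lib.Helper74
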