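import Cfsg.Agent.Lib.Helper74.S3D
import Cfsg.Agent.Lib.Helper74.NilAux

set_option autoImplicit false

namespace Cfsg.Agent.Lib.Helper74

open Finset

/-- Case I of Proposition B: `Vc f = ⊥`. -/
theorem S3Rel.propB_caseI {Γ V : Type*} [Group Γ] [Finite Γ] [CommGroup V] [Finite V] {f h : Γ}
    (r : S3Rel f h) (ρ : Γ →* MulAut V) (M U : Subgroup Γ) [hMn : M.Normal] [hUn : U.Normal]
    (hρ : ∀ g ∈ M, ρ g = 1 → g = 1)
    (hcopM : (Nat.card M).Coprime 6) (hcopUV : (Nat.card U).Coprime (Nat.card V))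
    (hfpfM : ∀ y ∈ M, f * y = y * f → h * y = y * h → y = 1)
    (hfpfV : ∀ v, ρ f v = v → ρ h v = v → v = 1)
    (hinvM : ∀ i, ∀ m ∈ M, ∀ v ∈ Vc ρ U (el f h i), ρ m v ∈ Vc ρ U (el f h i))
    (hindep : ∀ x : Fin 4 → V, (∀ i, x i ∈ Vc ρ U (el f h i)) → ∏ i, x i = 1 → ∀ i, x i = 1)
    (hspan : ∀ v, ∃ x : Fin 4 → V, (∀ i, x i ∈ Vc ρ U (el f h i)) ∧ v ^ Nat.card U = ∏ i, x i)
    (hVf : Vc ρ U f = ⊥) : ∀ a ∈ M, ∀ b ∈ M, a * b = b * a := by
  have e2 : f⁻¹ * f⁻¹ = f := by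
    have := r.inv.ff
    rwa [inv_inv] at this
  have c1 : f * h * f⁻¹ = f⁻¹ * h := by rw [mul_assoc, r.hfinv, ← mul_assoc, r.ff]
  have c2 : f⁻¹ * h * f = f * h := by rw [mul_assoc, r.hf, ← mul_assoc, e2]
  have c3 : f * (f * h) * f⁻¹ = h := by
    rw [← mul_assoc, r.ff, mul_assoc, r.hfinv, inv_mul_cancel_left]
  have c4 : f⁻¹ * (f⁻¹ * h) * f = h := by
    rw [← mul_assoc, e2, mul_assoc, r.hf, mul_inv_cancel_left]
  have hinv0 : ∀ m ∈ M, ∀ v ∈ Vc ρ U h, ρ m v ∈ Vc ρ U h := hinvM 1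
  have hhV0 : ∀ v ∈ Vc ρ U h, ρ h v ∈ Vc ρ U h := by
    intro v hv
    have := rho_mem_Vc_conj ρ U hv h
    rwa [mul_inv_cancel_right] at this
  have hfix0 : ∀ v ∈ Vc ρ U h, ρ h v = v → v = 1 := by
    intro v hv hhv
    have hN : v * ρ f v * ρ f⁻¹ v = 1 := by
      apply hfpfV
      · rw [map_mul, map_mul, ← rho_mul_apply, ← rho_mul_apply, r.ff, mul_inv_cancel, map_one,
          MulAut.one_apply]
        simp only [mul_comm, mul_left_comm]
      · rw [map_mul, map_mul, ← rho_mul_apply, ← rho_mul_apply, r.hf, r.hfinv, rho_mul_apply,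
          rho_mul_apply, hhv]
        simp only [mul_comm, mul_left_comm]
    have m2 : ρ f⁻¹ v ∈ Vc ρ U (f * h) := by
      have := rho_mem_Vc_conj ρ U hv f⁻¹
      rwa [inv_inv, c2] at this
    have m3 : ρ f v ∈ Vc ρ U (f⁻¹ * h) := by
      have := rho_mem_Vc_conj ρ U hv f
      rwa [c1] at this
    have := hindep ![1, v, ρ f⁻¹ v, ρ f v] (by
      intro i
      fin_cases i
      · exact Subgroup.one_mem _
      · exact hv
      · exact m2
      · exact m3) (by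
      rw [Fin.prod_univ_four]
      simp only [Matrix.cons_val_zero, Matrix.cons_val_one, Matrix.cons_val]
      refine Eq.trans ?_ hN
      rw [one_mul]
      simp only [mul_comm, mul_left_comm]) 1
    exact this
  have hinvert : ∀ v ∈ Vc ρ U h, ρ h v = v⁻¹ := by
    intro v hv
    have h1 : v * ρ h v = 1 := by
      apply hfix0 _ (Subgroup.mul_mem _ hv (hhV0 v hv))
      rw [map_mul, ← rho_mul_apply, r.hh, map_one, MulAut.one_apply, mul_comm]
    exact eq_inv_of_mul_eq_one_right h1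
  let K : Subgroup Γ :=
    { carrier := {m | m ∈ M ∧ ∀ v ∈ Vc ρ U h, ρ m v = v}
      mul_mem' := fun {a b} ha hb => ⟨M.mul_mem ha.1 hb.1, fun v hv => by
        rw [rho_mul_apply, hb.2 v hv, ha.2 v hv]⟩
      one_mem' := ⟨M.one_mem, fun v _ => by rw [map_one, MulAut.one_apply]⟩
      inv_mem' := fun {a} ha => ⟨M.inv_mem ha.1, fun v hv => rho_inv_apply_eq ρ a v (ha.2 v hv)⟩ }
  have hKM : K ≤ M := fun k hk => hk.1
  have hKn : ∀ x ∈ M, ∀ k ∈ K, x * k * x⁻¹ ∈ K := by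
    intro x hx k hk
    refine ⟨hMn.conj_mem k hk.1 x, fun v hv => ?_⟩
    rw [rho_mul_apply, rho_mul_apply, hk.2 _ (hinv0 _ (M.inv_mem hx) v hv), ← rho_mul_apply,
      mul_inv_cancel, map_one, MulAut.one_apply]
  have hh : ∀ x ∈ M, x⁻¹ * (h * x * h⁻¹) ∈ K := by
    intro x hx
    refine ⟨M.mul_mem (M.inv_mem hx) (hMn.conj_mem x hx h), fun v hv => ?_⟩
    rw [r.h_inv, rho_mul_apply, rho_mul_apply, rho_mul_apply, hinvert v hv, map_inv (ρ x),
      map_inv (ρ h),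
      hinvert _ (hinv0 x hx v hv), inv_inv, ← rho_mul_apply, inv_mul_cancel, map_one,
      MulAut.one_apply]
  have hD : ∀ x ∈ K, f⁻¹ * x * f ∈ K → f * x * f⁻¹ ∈ K → x = 1 := by
    intro x hx hx2 hx3
    apply hρ x hx.1
    ext w
    rw [MulAut.one_apply]
    obtain ⟨y, hy, hyw⟩ := hspan w
    have y0 : ρ x (y 0) = y 0 := by
      have h0 : y 0 ∈ Vc ρ U f := hy 0
      rw [hVf, Subgroup.mem_bot] at h0
      rw [h0, map_one]
    have y1 : ρ x (y 1) = y 1 := hx.2 _ (hy 1)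
    have y2 : ρ x (y 2) = y 2 := by
      have h0 : y 2 ∈ Vc ρ U (f * h) := hy 2
      have h1 := rho_mem_Vc_conj ρ U h0 f
      rw [c3] at h1
      have h2 := hx3.2 _ h1
      rw [← rho_mul_apply, inv_mul_cancel_right, rho_mul_apply] at h2
      exact (ρ f).injective h2
    have y3 : ρ x (y 3) = y 3 := by
      have h0 : y 3 ∈ Vc ρ U (f⁻¹ * h) := hy 3
      have h1 := rho_mem_Vc_conj ρ U h0 f⁻¹
      rw [inv_inv, c4] at h1
      have h2 := hx2.2 _ h1
      rw [← rho_mul_apply, mul_inv_cancel_right, rho_mul_apply] at h2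
      exact (ρ f⁻¹).injective h2
    have h5 : ρ x (w ^ Nat.card U) = w ^ Nat.card U := by
      rw [hyw, Fin.prod_univ_four, map_mul, map_mul, map_mul, y0, y1, y2, y3]
    have h6 : (ρ x w * w⁻¹) ^ Nat.card U = 1 := by
      rw [mul_pow, inv_pow, ← map_pow, h5, mul_inv_cancel]
    exact mul_inv_eq_one.1 (eq_one_of_pow_coprime hcopUV h6)
  have hC1 := r.comm_mem_of_triv M (fun x hx => hMn.conj_mem x hx f) hcopM hfpfM K hKM hKn hh hD
  intro a ha b hb
  have h1 : a * b * a⁻¹ * b⁻¹ = 1 := by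
    apply hD _ (hC1 a ha b hb)
    · have := hC1 (f⁻¹ * a * f) (by have := hMn.conj_mem a ha f⁻¹; rwa [inv_inv] at this)
        (f⁻¹ * b * f) (by have := hMn.conj_mem b hb f⁻¹; rwa [inv_inv] at this)
      have e : f⁻¹ * (a * b * a⁻¹ * b⁻¹) * f
          = f⁻¹ * a * f * (f⁻¹ * b * f) * (f⁻¹ * a * f)⁻¹ * (f⁻¹ * b * f)⁻¹ := by group
      rw [e]; exact this
    · have := hC1 (f * a * f⁻¹) (hMn.conj_mem a ha f) (f * b * f⁻¹) (hMn.conj_mem b hb f)
      have e : f * (a * b * a⁻¹ * b⁻¹) * f⁻¹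
          = f * a * f⁻¹ * (f * b * f⁻¹) * (f * a * f⁻¹)⁻¹ * (f * b * f⁻¹)⁻¹ := by group
      rw [e]; exact this
  have : a * b = (a * b * a⁻¹ * b⁻¹) * (b * a) := by group
  rw [this, h1, one_mul]


/-- Case II of Proposition B: `f` centralizes `U`. -/
theorem S3Rel.propB_caseII {Γ V : Type*} [Group Γ] [Finite Γ] [CommGroup V] [Finite V] {f h : Γ}
    (r : S3Rel f h) (ρ : Γ →* MulAut V) (M U : Subgroup Γ) [hMn : M.Normal] [hUn : U.Normal]
    (hUM : U ≤ M) (hUab : ∀ a ∈ U, ∀ b ∈ U, a * b = b * a)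
    (hρ : ∀ g ∈ M, ρ g = 1 → g = 1)
    (hcopM : (Nat.card M).Coprime 6)
    (hfpfM : ∀ y ∈ M, f * y = y * f → h * y = y * h → y = 1)
    (hfpfV : ∀ v, ρ f v = v → ρ h v = v → v = 1)
    (hCU : ∀ v, (∀ u ∈ U, ρ u v = v) → v = 1)
    (hY : ∀ Y : Subgroup Γ, Y.Normal → Y ≤ M → Group.IsNilpotent Y →
      (Nat.card Y).Coprime (Nat.card V))
    (hnil : Group.IsNilpotent ↥⁅M, M⁆)
    (hfU : ∀ u ∈ U, f * u = u * f) : ∀ a ∈ M, ∀ b ∈ M, a * b = b * a := by
  obtain ⟨hc2, hc3⟩ := not_dvd_of_coprime_six hcopM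
  have hhU : ∀ u ∈ U, h * u * h⁻¹ = u⁻¹ := by
    intro u hu
    have hu' : h * u * h⁻¹ ∈ U := hUn.conj_mem u hu h
    have h1 : u * (h * u * h⁻¹) = 1 := by
      apply hfpfM _ (hUM (U.mul_mem hu hu')) (hfU _ (U.mul_mem hu hu'))
      apply mul_inv_eq_iff_eq_mul.1
      calc h * (u * (h * u * h⁻¹)) * h⁻¹ = (h * u * h⁻¹) * ((h * h) * u * (h * h)⁻¹) := by group
        _ = (h * u * h⁻¹) * u := by rw [r.hh]; group
        _ = u * (h * u * h⁻¹) := hUab _ hu' _ hu
    exact eq_inv_of_mul_eq_one_right h1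
  have hfV : ∀ v, ρ f v = v → v = 1 := by
    intro v hv
    have hCinv : ∀ z, ρ f z = z → ρ h z = z⁻¹ := by
      intro z hz
      have h1 : z * ρ h z = 1 := by
        apply hfpfV
        · rw [map_mul, hz, ← rho_mul_apply, ← r.hfinv, rho_mul_apply, rho_inv_apply_eq ρ f z hz]
        · rw [map_mul, ← rho_mul_apply, r.hh, map_one, MulAut.one_apply, mul_comm]
      exact eq_inv_of_mul_eq_one_right h1
    apply hCU
    intro u hu
    have hCu : ρ f (ρ u v) = ρ u v := by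
      rw [← rho_mul_apply, hfU u hu, rho_mul_apply, hv]
    have h1 : ρ (h * u * h⁻¹) v = ρ u v := by
      rw [r.h_inv, rho_mul_apply, rho_mul_apply, hCinv v hv, map_inv (ρ u), map_inv (ρ h),
        hCinv _ hCu, inv_inv]
    rw [hhU u hu] at h1
    have h2 : ρ (u ^ 2) v = v := by
      rw [pow_two, rho_mul_apply, ← h1, ← rho_mul_apply, mul_inv_cancel, map_one,
        MulAut.one_apply]
    have hodd : Nat.Coprime 2 (orderOf u) :=
      (Nat.Prime.coprime_iff_not_dvd Nat.prime_two).2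
        (fun hd => hc2 (hd.trans (Subgroup.orderOf_dvd_natCard M (hUM hu))))
    obtain ⟨k, hk⟩ := exists_pow_eq_self_of_coprime (n := 2) (x := u) hodd
    have h3 := rho_pow_apply_eq ρ _ v h2 k
    rwa [hk] at h3
  obtain ⟨D, hD⟩ : ∃ D : Subgroup Γ, D = ⁅M, M⁆ := ⟨_, rfl⟩
  have hDn : D.Normal := by rw [hD]; infer_instance
  have hDM : D ≤ M := by rw [hD]; exact commutator_self_le M
  have hDnil : Group.IsNilpotent D := by rw [hD]; exact hnil
  have hfD := fpf3_centralizes ρ f r.f3 hfV _ D rfl (fun y hy => hDn.conj_mem y hy f)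
    inferInstance (hcopM.coprime_dvd_left (Subgroup.card_dvd_of_le hDM)) (hY D hDn hDM hDnil)
    (fun x hx => hρ x (hDM hx))
  obtain ⟨R, hR⟩ : ∃ R : Subgroup Γ, R = M ⊓ Subgroup.centralizer (D : Set Γ) := ⟨_, rfl⟩
  have hRn : R.Normal := by rw [hR]; infer_instance
  have hRM : R ≤ M := by rw [hR]; exact inf_le_left
  have hRD : ∀ y ∈ R, ∀ d ∈ D, d * y = y * d := by
    intro y hy d hd
    rw [hR] at hy
    exact (Subgroup.mem_centralizer_iff.1 hy.2) d hd
  have hRnil : Group.IsNilpotent R := by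
    apply Subgroup.isNilpotent_of_ker_le_center (Abelianization.of (G := R))
    rw [Abelianization.ker_of]
    intro x hx
    rw [Subgroup.mem_center_iff]
    intro y
    have hx' : (x : Γ) ∈ ⁅R, R⁆ := by rw [← map_subtype_commutator]; exact ⟨x, hx, rfl⟩
    have hx'' : (x : Γ) ∈ D := by rw [hD]; exact Subgroup.commutator_mono hRM hRM hx'
    exact Subtype.ext (hRD y y.2 x hx'').symm
  have hfR := fpf3_centralizes ρ f r.f3 hfV _ R rfl (fun y hy => hRn.conj_mem y hy f)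
    inferInstance (hcopM.coprime_dvd_left (Subgroup.card_dvd_of_le hRM)) (hY R hRn hRM hRnil)
    (fun x hx => hρ x (hRM hx))
  have hfD' : ∀ d ∈ D, f * d * f⁻¹ = d := fun d hd => mul_inv_eq_iff_eq_mul.2 (hfD d hd)
  have hfD'' : ∀ d ∈ D, f⁻¹ * d * f = d := by
    intro d hd
    rw [mul_assoc, ← hfD d hd]; group
  have hfM : ∀ g ∈ M, f * g = g * f := by
    intro g hg
    obtain ⟨y, hy⟩ : ∃ y, y = g * f * g⁻¹ * f⁻¹ := ⟨_, rfl⟩
    have hyM : y ∈ M := by rw [hy]; exact comm_mem_of_normal M hg f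
    have hyD : ∀ d ∈ D, y * d * y⁻¹ = d := by
      intro d hd
      have h1 : g⁻¹ * d * g ∈ D := by
        have := hDn.conj_mem d hd g⁻¹; simpa using this
      calc y * d * y⁻¹ = g * f * g⁻¹ * (f⁻¹ * d * f) * g * f⁻¹ * g⁻¹ := by rw [hy]; group
        _ = g * (f * (g⁻¹ * d * g) * f⁻¹) * g⁻¹ := by rw [hfD'' d hd]; group
        _ = d := by rw [hfD' _ h1]; group
    have hyR : y ∈ R := by
      rw [hR, Subgroup.mem_inf]
      refine ⟨hyM, ?_⟩
      rw [Subgroup.mem_centralizer_iff]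
      intro d hd
      exact (mul_inv_eq_iff_eq_mul.1 (hyD d hd)).symm
    have hyf : Commute y f := (hfR y hyR).symm
    have hyN : (y * f) ^ 3 = 1 := by
      have : y * f = g * f * g⁻¹ := by rw [hy]; group
      rw [this, conj_pow, r.f3]; group
    rw [hyf.mul_pow, r.f3, mul_one] at hyN
    have h3 : Nat.Coprime 3 (orderOf y) :=
      (Nat.Prime.coprime_iff_not_dvd Nat.prime_three).2
        (fun hd => hc3 (hd.trans (Subgroup.orderOf_dvd_natCard M hyM)))
    obtain ⟨k, hk⟩ := exists_pow_eq_self_of_coprime (n := 3) (x := y) h3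
    have hy1 : y = 1 := by rw [← hk, hyN, one_pow]
    rw [hy] at hy1
    have h2 : g * f * g⁻¹ = f := mul_inv_eq_one.1 hy1
    exact (mul_inv_eq_iff_eq_mul.1 h2).symm
  have hhM : ∀ y ∈ M, h * y = y * h → y = 1 := fun y hy hc => hfpfM y hy (hfM y hy) hc
  exact comm_of_inverts M h (inverts_of_sq_comm M h (fun y hy => hMn.conj_mem y hy h) hhM
    (fun y _ => by rw [r.h2, one_mul, mul_one]))

/-- **Proposition B** for the symmetric group of degree `3`. -/
theorem S3Rel.propB {Γ V : Type*} [Group Γ] [Finite Γ] [CommGroup V] [Finite V] {f h : Γ}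
    (r : S3Rel f h) (ρ : Γ →* MulAut V) (q : ℕ) (hq : q.Prime) (hVq : ∀ v : V, v ^ q = 1)
    (hV : Nontrivial V) (M : Subgroup Γ) (hMn : M.Normal) (hρ : ∀ g ∈ M, ρ g = 1 → g = 1)
    (hirr : ∀ W : Subgroup V, (∀ g ∈ M, ∀ w ∈ W, ρ g w ∈ W) → (∀ w ∈ W, ρ f w ∈ W) →
      (∀ w ∈ W, ρ h w ∈ W) → W = ⊥ ∨ W = ⊤)
    (hcopM : (Nat.card M).Coprime 6)
    (hfpfM : ∀ y ∈ M, f * y = y * f → h * y = y * h → y = 1)
    (hfpfV : ∀ v, ρ f v = v → ρ h v = v → v = 1)
    (hsol : Group.IsSolvable M)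
    (hnil : Group.IsNilpotent ↥⁅M, M⁆) : ∀ a ∈ M, ∀ b ∈ M, a * b = b * a := by
  have : Fact q.Prime := ⟨hq⟩
  have hVp : IsPGroup q V := fun v => ⟨1, by rw [pow_one]; exact hVq v⟩
  obtain ⟨k, hk⟩ := IsPGroup.iff_card.1 hVp
  have hk0 : k ≠ 0 := by
    rintro rfl
    have := Finite.one_lt_card (α := V)
    rw [hk] at this; simp at this
  have hqV : q ∣ Nat.card V := by rw [hk]; exact dvd_pow_self q hk0
  let CV : Subgroup Γ → Subgroup V := fun R =>
      { carrier := {v | ∀ g ∈ R, ρ g v = v}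
        mul_mem' := fun {a b} ha hb g hg => by rw [map_mul, ha g hg, hb g hg]
        one_mem' := fun g _ => map_one _
        inv_mem' := fun {a} ha g hg => by rw [map_inv, ha g hg] }
  have hCVinv : ∀ R : Subgroup Γ, R.Normal → ∀ g : Γ, ∀ w ∈ CV R, ρ g w ∈ CV R := by
    intro R hRn g w hw x hx
    have h1 : g⁻¹ * x * g ∈ R := by
      have := hRn.conj_mem x hx g⁻¹; simpa using this
    have h2 := hw _ h1
    calc ρ x (ρ g w) = ρ g (ρ (g⁻¹ * x * g) w) := by
          rw [← rho_mul_apply, ← rho_mul_apply]; congr 2; group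
      _ = ρ g w := by rw [h2]
  have hCVdich : ∀ R : Subgroup Γ, R.Normal → R ≤ M → CV R = ⊥ ∨ R = ⊥ := by
    intro R hRn hRM
    rcases hirr (CV R) (fun g _ => hCVinv R hRn g) (hCVinv R hRn f) (hCVinv R hRn h) with h1 | h1
    · exact Or.inl h1
    · right
      rw [eq_bot_iff]
      intro g hg
      rw [Subgroup.mem_bot]
      apply hρ g (hRM hg)
      ext v
      have : v ∈ CV R := by rw [h1]; trivial
      exact this g hg
  have hR : ∀ R : Subgroup Γ, R.Normal → R ≤ M → IsPGroup q R → R = ⊥ := by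
    intro R hRn hRM hRp
    have hWne : CV R ≠ ⊥ := by
      let _ : MulAction R V := MulAction.compHom V (ρ.comp R.subtype)
      obtain ⟨b, hb, hb1⟩ := hRp.exists_fixed_point_of_prime_dvd_card_of_fixed_point V hqV
        (a := 1) (fun g => map_one (ρ g))
      intro h
      have hbW : b ∈ CV R := fun g hg => hb ⟨g, hg⟩
      rw [h, Subgroup.mem_bot] at hbW
      exact hb1 hbW.symm
    exact (hCVdich R hRn hRM).resolve_left hWne
  have hY : ∀ Y : Subgroup Γ, Y.Normal → Y ≤ M → Group.IsNilpotent Y →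
      (Nat.card Y).Coprime (Nat.card V) := by
    intro Y hYn hYM hYnil
    rw [hk]
    apply Nat.Coprime.pow_right
    rw [Nat.coprime_comm, Nat.Prime.coprime_iff_not_dvd hq]
    intro hdvd
    obtain ⟨P⟩ : Nonempty (Sylow q Y) := inferInstance
    have hPn : (P : Subgroup Y).Normal := inferInstance
    have hPc : (P : Subgroup Y).Characteristic := Sylow.characteristic_of_normal P hPn
    have hRn : ((P : Subgroup Y).map Y.subtype).Normal :=
      ConjAct.normal_of_characteristic_of_normal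
    have h1 := hR _ hRn (by rintro _ ⟨x, _, rfl⟩; exact hYM x.2) (P.2.map _)
    exact P.ne_bot_of_dvd_card hdvd
      ((Subgroup.map_eq_bot_iff_of_injective _ Y.subtype_injective).1 h1)
  by_cases hM : M = ⊥
  · intro a ha b hb
    rw [hM, Subgroup.mem_bot] at ha hb
    rw [ha, hb]
  obtain ⟨u, U, hu, hUn, hUne, hUM, hUab, hUu⟩ := exists_normal_elemAbelian_le M hM hsol
  have : Fact u.Prime := ⟨hu⟩
  have hUp : IsPGroup u U := fun x => ⟨1, by
    rw [pow_one]; exact Subtype.ext (by simpa using hUu x x.2)⟩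
  have hcopUV := hY U hUn hUM hUp.isNilpotent
  have hCU : ∀ v, (∀ u ∈ U, ρ u v = v) → v = 1 := by
    intro v hv
    have h1 : v ∈ CV U := hv
    rw [(hCVdich U hUn hUM).resolve_right hUne, Subgroup.mem_bot] at h1
    exact h1
  have hfpfU : ∀ y ∈ U, f * y = y * f → h * y = y * h → y = 1 := fun y hy => hfpfM y (hUM hy)
  obtain ⟨hinvM, hindep, hspan⟩ := r.decomp ρ M U hUM hUab hcopM hcopUV hfpfU hfpfV hCU
  by_cases hVf : Vc ρ U f = ⊥
  · exact r.propB_caseI ρ M U hρ hcopM hcopUV hfpfM hfpfV hinvM hindep hspan hVf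
  · have htop : Vc ρ U f = ⊤ := by
      refine (hirr (Vc ρ U f) (hinvM 0) ?_ ?_).resolve_left hVf
      · intro w hw
        have := rho_mem_Vc_conj ρ U hw f
        rwa [mul_inv_cancel_right] at this
      · intro w hw
        have := rho_mem_Vc_conj ρ U hw h
        rwa [r.rel, Vc_inv] at this
    refine r.propB_caseII ρ M U hUM hUab hρ hcopM hfpfM hfpfV hCU hY hnil ?_
    intro x hx
    have h1 : x * f * x⁻¹ * f⁻¹ = 1 := by
      apply hρ _ (hUM (comm_mem_of_normal U hx f))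
      ext v
      have hv : v ∈ Vc ρ U f := by rw [htop]; trivial
      exact hv x hx
    have h2 : x * f * x⁻¹ = f := mul_inv_eq_one.1 h1
    exact (mul_inv_eq_iff_eq_mul.1 h2).symm

end Cfsg.Agent.Lib.Helper74
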