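import Cfsg.Agent.Lib.Helper74.S3E
import Cfsg.Agent.Lib.Helper74.Fpf4D

set_option autoImplicit false

namespace Cfsg.Agent.Lib.Helper74

/-- `f, h` satisfy the relations of the symmetric group of degree `3` and have no common nontrivial
fixed point on the normal subgroup `G` of order prime to `6`. -/
structure FS3 {Γ : Type*} [Group Γ] (G : Subgroup Γ) (f h : Γ) : Prop where
  normal : G.Normal
  rel : S3Rel f h
  cop : (Nat.card G).Coprime 6
  fpf : ∀ g ∈ G, f * g = g * f → h * g = g * h → g = 1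

theorem FS3.quotient {Γ : Type*} [Group Γ] [Finite Γ] {G : Subgroup Γ} {f h : Γ} (H : FS3 G f h)
    (N : Subgroup Γ) [hN : N.Normal] (hNG : N ≤ G) :
    FS3 (G.map (QuotientGroup.mk' N)) (QuotientGroup.mk' N f) (QuotientGroup.mk' N h) := by
  refine ⟨H.normal.map _ (QuotientGroup.mk'_surjective N), H.rel.map _,
    H.cop.coprime_dvd_left (Subgroup.card_map_dvd G _), ?_⟩
  rintro _ ⟨g, hg, rfl⟩ hc1 hc2
  have key : ∀ s : Γ, QuotientGroup.mk' N s * QuotientGroup.mk' N g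
      = QuotientGroup.mk' N g * QuotientGroup.mk' N s → g⁻¹ * (s * g * s⁻¹) ∈ N := by
    intro s hcomm
    rw [← map_mul, ← map_mul] at hcomm
    have h1 : (g * s)⁻¹ * (s * g) ∈ N := QuotientGroup.eq.1 hcomm.symm
    have := hN.conj_mem _ h1 s
    have e : s * ((g * s)⁻¹ * (s * g)) * s⁻¹ = g⁻¹ * (s * g * s⁻¹) := by group
    rwa [e] at this
  have h3 := H.rel.mem_of_comm_mem G N hNG (fun y hy => hN.conj_mem y hy f)
    (fun y hy => hN.conj_mem y hy h) (H.cop.coprime_dvd_left (Subgroup.card_dvd_of_le hNG))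
    H.fpf g hg (key f hc1) (key h hc2)
  exact (QuotientGroup.eq_one_iff g).2 h3

theorem FS3.subgroupOf {Γ : Type*} [Group Γ] [Finite Γ] {G : Subgroup Γ} {f h : Γ}
    (H : FS3 G f h) (Λ : Subgroup Γ) (hf : f ∈ Λ) (hh : h ∈ Λ) :
    FS3 (G.subgroupOf Λ) (⟨f, hf⟩ : Λ) (⟨h, hh⟩ : Λ) := by
  refine ⟨H.normal.subgroupOf Λ, ⟨Subtype.ext (by simpa using H.rel.f3),
    Subtype.ext (by simpa using H.rel.h2), Subtype.ext (by simpa using H.rel.rel)⟩, ?_, ?_⟩
  · refine H.cop.coprime_dvd_left (Subgroup.card_dvd_of_injective (Λ.subtype.subgroupComap G) ?_)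
    exact fun a b hab => Subtype.ext (Subtype.ext (congrArg (fun z : G => (z : Γ)) hab))
  · intro g hg hc1 hc2
    apply Subtype.ext
    exact H.fpf g (Subgroup.mem_subgroupOf.1 hg) (congrArg Subtype.val hc1)
      (congrArg Subtype.val hc2)

theorem FS3.conj {Γ : Type*} [Group Γ] {G : Subgroup Γ} {f h : Γ} (H : FS3 G f h) (x : Γ) :
    FS3 G (x * f * x⁻¹) (x * h * x⁻¹) :=
  have := H.normal
  ⟨H.normal, H.rel.conj x, H.cop, fpf_pair_conj_sub G f h x H.fpf⟩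

theorem mem_normalizer_of_conj_mem {Γ : Type*} [Group Γ] [Finite Γ] (X : Subgroup Γ) (t : Γ)
    (htX : ∀ y ∈ X, t * y * t⁻¹ ∈ X) : t ∈ Subgroup.normalizer (X : Set Γ) :=
  mem_normalizer_of_pow_eq_one X t (orderOf t - 1)
    (by rw [Nat.sub_add_cancel (orderOf_pos t), pow_orderOf_eq_one]) htX

open scoped IsMulCommutative in
theorem FS3.commutator_centralizes {Γ : Type*} [Group Γ] [Finite Γ] {G : Subgroup Γ} {f h : Γ}
    (H : FS3 G f h) (hgen : G ⊔ Subgroup.closure {f, h} = ⊤) (hsol : Group.IsSolvable G)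
    (q : ℕ) (hq : q.Prime) (V : Subgroup Γ) (hVn : V.Normal) (hVne : V ≠ ⊥)
    (hVG : V ≤ G) (hVab : ∀ x ∈ V, ∀ y ∈ V, x * y = y * x) (hVq : ∀ x ∈ V, x ^ q = 1)
    (hVmin : ∀ W : Subgroup Γ, W.Normal → W ≤ V → W = ⊥ ∨ W = V)
    (Λ : Subgroup Γ) (hΛ : V ⊔ Λ = ⊤) (hf : f ∈ Λ) (hh : h ∈ Λ)
    (hnil : Group.IsNilpotent ↥⁅G.subgroupOf Λ, G.subgroupOf Λ⁆) :
    ∀ x ∈ ⁅G, G⁆, ∀ v ∈ V, x * v = v * x := by
  have hGn := H.normal
  have : IsMulCommutative V := ⟨⟨fun a b => Subtype.ext (hVab a a.2 b b.2)⟩⟩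
  let ρΓ : Γ →* MulAut V := MulAut.conjNormal
  let ρ0 : Λ →* MulAut V := ρΓ.comp Λ.subtype
  have hρΓ : ∀ (g : Γ) (v : V), ((ρΓ g v : V) : Γ) = g * v * g⁻¹ := fun g v => rfl
  have hdec : ∀ g : Γ, ∃ y ∈ V, ∃ z ∈ Λ, y * z = g := by
    intro g
    have : g ∈ V ⊔ Λ := by rw [hΛ]; trivial
    exact Subgroup.mem_sup_of_normal_left.1 this
  have hρV : ∀ y ∈ V, ρΓ y = 1 := by
    intro y hy
    ext v
    rw [hρΓ, MulAut.one_apply, hVab y hy v v.2]; group
  let X : Subgroup Λ := G.subgroupOf Λ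
  have hXn : X.Normal := hGn.subgroupOf Λ
  let f0 : Λ := ⟨f, hf⟩
  let h0 : Λ := ⟨h, hh⟩
  have H0 : FS3 X f0 h0 := H.subgroupOf Λ hf hh
  have hXsol : Group.IsSolvable X := Group.isSolvable_of_isSolvable_injective
    (f := Λ.subtype.subgroupComap G)
    (fun a b hab => Subtype.ext (Subtype.ext (congrArg (fun z : G => (z : Γ)) hab)))
  have key := (H0.rel.map ρ0.rangeRestrict).propB (Γ := ρ0.range) (V := V) ρ0.range.subtype
    q hq (fun v => Subtype.ext (by simpa using hVq v v.2))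
    ((Subgroup.nontrivial_iff_ne_bot V).2 hVne)
    (X.map ρ0.rangeRestrict) (hXn.map _ ρ0.rangeRestrict_surjective)
    (fun g _ hg => Subtype.ext hg) ?hirr ?hcop ?hfpfM ?hfpfV ?hsol ?hnil
  case hirr =>
    intro W hWM hWf hWh
    have hnorm : Subgroup.normalizer ((W.map V.subtype : Subgroup Γ) : Set Γ) = ⊤ := by
      rw [eq_top_iff, ← hgen]
      have hΛW : ∀ z (hz : z ∈ Λ), (∀ w ∈ W, ρ0 ⟨z, hz⟩ w ∈ W) →
          z ∈ Subgroup.normalizer ((W.map V.subtype : Subgroup Γ) : Set Γ) := by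
        intro z hz hzW
        apply mem_normalizer_of_conj_mem
        rintro _ ⟨w, hw, rfl⟩
        exact ⟨_, hzW w hw, rfl⟩
      refine sup_le ?_ ?_
      · intro g hg
        obtain ⟨y, hy, z, hz, rfl⟩ := hdec g
        have hzG : z ∈ G := by
          have : z = y⁻¹ * (y * z) := by group
          rw [this]; exact G.mul_mem (G.inv_mem (hVG hy)) hg
        refine Subgroup.mul_mem _ ?_ ?_
        · apply mem_normalizer_of_conj_mem
          rintro _ ⟨w, hw, rfl⟩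
          refine ⟨w, hw, ?_⟩
          change (w : Γ) = y * (w : Γ) * y⁻¹
          rw [hVab y hy w w.2]; group
        · exact hΛW z hz (fun w hw => hWM (ρ0.rangeRestrict ⟨z, hz⟩)
            ⟨_, Subgroup.mem_subgroupOf.2 hzG, rfl⟩ w hw)
      · rw [Subgroup.closure_le]
        rintro x (rfl | rfl)
        · exact hΛW _ hf hWf
        · exact hΛW _ hh hWh
    have hWn : (W.map V.subtype).Normal := Subgroup.normalizer_eq_top_iff.1 hnorm
    rcases hVmin _ hWn (by rintro _ ⟨w, _, rfl⟩; exact w.2) with h1 | h1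
    · left
      exact (Subgroup.map_eq_bot_iff_of_injective _ V.subtype_injective).1 h1
    · right
      rw [eq_top_iff]
      intro v _
      have : (v : Γ) ∈ W.map V.subtype := by rw [h1]; exact v.2
      obtain ⟨w, hw, hwv⟩ := this
      have : w = v := Subtype.ext hwv
      rwa [← this]
  case hcop =>
    exact H0.cop.coprime_dvd_left (Subgroup.card_map_dvd X _)
  case hfpfV =>
    intro v hv1 hv2
    have h1 : f * v * f⁻¹ = v := congrArg Subtype.val hv1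
    have h2 : h * v * h⁻¹ = v := congrArg Subtype.val hv2
    exact Subtype.ext (H.fpf v (hVG v.2) (mul_inv_eq_iff_eq_mul.1 h1) (mul_inv_eq_iff_eq_mul.1 h2))
  case hfpfM =>
    rintro _ ⟨l, hl, rfl⟩ hc1 hc2
    have hk : ∀ s0 : Λ, ρ0.rangeRestrict s0 * ρ0.rangeRestrict l
        = ρ0.rangeRestrict l * ρ0.rangeRestrict s0 → l⁻¹ * (s0 * l * s0⁻¹) ∈ ρ0.ker ⊓ X := by
      intro s0 hcomm
      rw [← map_mul, ← map_mul] at hcomm
      have h1 : ρ0 (s0 * l) = ρ0 (l * s0) := congrArg Subtype.val hcomm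
      refine Subgroup.mem_inf.2 ⟨?_, ?_⟩
      · rw [MonoidHom.mem_ker]
        have e : l⁻¹ * (s0 * l * s0⁻¹) = l⁻¹ * (s0 * l) * s0⁻¹ := by group
        rw [e, map_mul, map_mul, h1, ← map_mul, ← map_mul]
        have e2 : l⁻¹ * (l * s0) * s0⁻¹ = 1 := by group
        rw [e2, map_one]
      · exact X.mul_mem (X.inv_mem hl) (hXn.conj_mem l hl s0)
    have hNn : (ρ0.ker ⊓ X).Normal := inferInstance
    have h3 := H0.rel.mem_of_comm_mem X (ρ0.ker ⊓ X) inf_le_right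
      (fun y hy => hNn.conj_mem y hy f0) (fun y hy => hNn.conj_mem y hy h0)
      (H0.cop.coprime_dvd_left (Subgroup.card_dvd_of_le inf_le_right)) H0.fpf l hl
      (hk f0 hc1) (hk h0 hc2)
    exact Subtype.ext (MonoidHom.mem_ker.1 h3.1)
  case hsol =>
    exact Group.isSolvable_of_surjective (ρ0.rangeRestrict.subgroupMap_surjective X)
  case hnil =>
    rw [← Subgroup.map_commutator]
    exact Group.nilpotent_of_surjective _ (ρ0.rangeRestrict.subgroupMap_surjective ⁅X, X⁆)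
  -- conclusion
  have hcomm : ∀ z1 ∈ G ⊓ Λ, ∀ z2 ∈ G ⊓ Λ, ρΓ z1 * ρΓ z2 = ρΓ z2 * ρΓ z1 := by
    intro z1 hz1 z2 hz2
    have := key (ρ0.rangeRestrict ⟨z1, hz1.2⟩) ⟨_, Subgroup.mem_subgroupOf.2 hz1.1, rfl⟩
      (ρ0.rangeRestrict ⟨z2, hz2.2⟩) ⟨_, Subgroup.mem_subgroupOf.2 hz2.1, rfl⟩
    exact congrArg Subtype.val this
  have hker : ⁅G, G⁆ ≤ ρΓ.ker := by
    rw [Subgroup.commutator_le]
    intro g1 hg1 g2 hg2
    obtain ⟨y1, hy1, z1, hz1, rfl⟩ := hdec g1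
    obtain ⟨y2, hy2, z2, hz2, rfl⟩ := hdec g2
    have hz1G : z1 ∈ G := by
      have : z1 = y1⁻¹ * (y1 * z1) := by group
      rw [this]; exact G.mul_mem (G.inv_mem (hVG hy1)) hg1
    have hz2G : z2 ∈ G := by
      have : z2 = y2⁻¹ * (y2 * z2) := by group
      rw [this]; exact G.mul_mem (G.inv_mem (hVG hy2)) hg2
    rw [MonoidHom.mem_ker, map_commutatorElement, map_mul, map_mul, hρV y1 hy1, hρV y2 hy2,
      one_mul, one_mul, commutatorElement_eq_one_iff_mul_comm]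
    exact hcomm z1 ⟨hz1G, hz1⟩ z2 ⟨hz2G, hz2⟩
  intro x hx v hv
  have h1 : ρΓ x = 1 := MonoidHom.mem_ker.1 (hker hx)
  have h2 : ((ρΓ x ⟨v, hv⟩ : V) : Γ) = x * v * x⁻¹ := rfl
  rw [h1] at h2
  exact (mul_inv_eq_iff_eq_mul.1 h2.symm)

end Cfsg.Agent.Lib.Helper74
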