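import Cfsg.Agent.Lib.Helper74.S3F

set_option autoImplicit false

namespace Cfsg.Agent.Lib.Helper74

universe u

theorem FS3.isNilpotent_aux : ∀ (n : ℕ) (Γ : Type u) [Group Γ] [Finite Γ] (G : Subgroup Γ)
    (f h : Γ), Nat.card Γ = n → FS3 G f h → Group.IsSolvable G →
    Group.IsNilpotent ↥⁅G, G⁆ := by
  intro n
  induction n using Nat.strong_induction_on with
  | _ n ih =>
  intro Γ _ _ G f h hn H hsol
  have hGn := H.normal
  have hsubsol : ∀ Λ : Subgroup Γ, Group.IsSolvable (G.subgroupOf Λ) := fun Λ =>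
    Group.isSolvable_of_isSolvable_injective (f := Λ.subtype.subgroupComap G)
      (fun a b hab => Subtype.ext (Subtype.ext (congrArg (fun z : G => (z : Γ)) hab)))
  by_cases hgen : G ⊔ Subgroup.closure {f, h} = ⊤
  swap
  · obtain ⟨Γ0, hΓ0⟩ : ∃ Γ0, Γ0 = G ⊔ Subgroup.closure {f, h} := ⟨_, rfl⟩
    rw [← hΓ0] at hgen
    have hGΓ0 : G ≤ Γ0 := by rw [hΓ0]; exact le_sup_left
    have hf0 : f ∈ Γ0 := by
      rw [hΓ0]; exact (le_sup_right : _ ≤ G ⊔ _) (Subgroup.subset_closure (by simp))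
    have hh0 : h ∈ Γ0 := by
      rw [hΓ0]; exact (le_sup_right : _ ≤ G ⊔ _) (Subgroup.subset_closure (by simp))
    have h1 : Group.IsNilpotent ↥⁅G.subgroupOf Γ0, G.subgroupOf Γ0⁆ := by
      refine ih (Nat.card Γ0) ?_ Γ0 _ ⟨f, hf0⟩ ⟨h, hh0⟩ rfl (H.subgroupOf _ hf0 hh0) (hsubsol Γ0)
      rw [← hn]
      have := card_lt_of_lt (lt_top_iff_ne_top.2 hgen)
      rwa [Subgroup.card_top] at this
    rw [isNilpotent_map_subtype_iff, Subgroup.map_commutator, Subgroup.subgroupOf_map_subtype,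
      inf_eq_left.2 hGΓ0] at h1
    exact h1
  by_contra hnil
  have hquo : ∀ (N : Subgroup Γ) [N.Normal], N ≠ ⊥ → N ≤ G →
      Group.IsNilpotent ↥((⁅G, G⁆).map (QuotientGroup.mk' N)) := by
    intro N _ hN hNG
    have hcard : Nat.card (Γ ⧸ N) < n := by
      rw [← hn, Subgroup.card_eq_card_quotient_mul_card_subgroup N]
      exact lt_mul_of_one_lt_right Nat.card_pos ((Subgroup.one_lt_card_iff_ne_bot N).2 hN)
    have := ih _ hcard (Γ ⧸ N) (G.map (QuotientGroup.mk' N)) (QuotientGroup.mk' N f)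
      (QuotientGroup.mk' N h) rfl (H.quotient N hNG)
      (Group.isSolvable_of_surjective ((QuotientGroup.mk' N).subgroupMap_surjective G))
    rwa [← Subgroup.map_commutator] at this
  have hinter : ∀ (N1 N2 : Subgroup Γ), N1.Normal → N2.Normal → N1 ≠ ⊥ → N2 ≠ ⊥ → N1 ≤ G →
      N2 ≤ G → N1 ⊓ N2 ≠ ⊥ := by
    intro N1 N2 _ _ h1 h2 h1H h2H hbot
    apply hnil
    have n1 := hquo N1 h1 h1H
    have n2 := hquo N2 h2 h2H
    refine isNilpotent_of_injective (((QuotientGroup.mk' N1).subgroupMap ⁅G, G⁆).prod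
      ((QuotientGroup.mk' N2).subgroupMap ⁅G, G⁆)) ?_ inferInstance
    rw [injective_iff_map_eq_one]
    intro x hx
    rw [MonoidHom.prod_apply, Prod.mk_eq_one] at hx
    have hx1 : (x : Γ) ∈ N1 :=
      (QuotientGroup.eq_one_iff (x : Γ)).1 (congrArg Subtype.val hx.1)
    have hx2 : (x : Γ) ∈ N2 :=
      (QuotientGroup.eq_one_iff (x : Γ)).1 (congrArg Subtype.val hx.2)
    have hx3 : (x : Γ) ∈ N1 ⊓ N2 := ⟨hx1, hx2⟩
    rw [hbot, Subgroup.mem_bot] at hx3
    exact Subtype.ext hx3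
  have hG : G ≠ ⊥ := by
    rintro rfl
    apply hnil
    exact isNilpotent_of_le (commutator_self_le ⊥) inferInstance
  obtain ⟨r, V, hr, hVn, hVne, hVG, hVab, hVr, hVmin⟩ := exists_minimal_normal_le G hG hsol
  have : Fact r.Prime := ⟨hr⟩
  have hKnil := hquo V hVne hVG
  by_cases hKr : IsPGroup r ↥((⁅G, G⁆).map (QuotientGroup.mk' V))
  · apply hnil
    have : IsPGroup r ↥⁅G, G⁆ := by
      rintro ⟨x, hx⟩
      obtain ⟨k, hk⟩ := hKr ⟨QuotientGroup.mk' V x, Subgroup.mem_map_of_mem _ hx⟩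
      have h1 : QuotientGroup.mk' V (x ^ r ^ k) = 1 := by
        rw [map_pow]; simpa using congrArg Subtype.val hk
      have h2 : x ^ r ^ k ∈ V := (QuotientGroup.eq_one_iff _).1 h1
      refine ⟨k + 1, Subtype.ext ?_⟩
      have := hVr _ h2
      rw [← pow_mul, ← pow_succ] at this
      simpa using this
    exact this.isNilpotent
  obtain ⟨q, hq, hqr, hqK⟩ : ∃ q : ℕ, q.Prime ∧ q ≠ r ∧
      q ∣ Nat.card ↥((⁅G, G⁆).map (QuotientGroup.mk' V)) := by
    by_contra hcon
    push Not at hcon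
    apply hKr
    exact IsPGroup.of_card (Nat.eq_prime_pow_of_unique_prime_dvd Nat.card_pos.ne'
      (fun {d} hd hdd => by
        by_contra hne
        exact hcon d hd hne hdd))
  have : Fact q.Prime := ⟨hq⟩
  have hcop : q.Coprime r := (Nat.coprime_primes hq hr).2 hqr
  obtain ⟨Q, hQp, hQV, hQK, hfrat⟩ := exists_sylow_frattini V ⁅G, G⁆ hKnil q hqK
  have hQG : Q ≤ G := hQK.trans (sup_le (commutator_self_le G) hVG)
  have hQne : Q ≠ ⊥ := by rintro rfl; exact hQV bot_le
  have hQVbot : V ⊓ Q = ⊥ := by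
    rw [eq_bot_iff]
    intro x hx
    obtain ⟨k, hk⟩ := hQp ⟨x, hx.2⟩
    have hk' : x ^ q ^ k = 1 := by simpa using congrArg Subtype.val hk
    rw [Subgroup.mem_bot]
    have h1 : orderOf x ∣ q ^ k := orderOf_dvd_of_pow_eq_one hk'
    have h2 : orderOf x ∣ r := orderOf_dvd_of_pow_eq_one (hVr x hx.1)
    have h3 : orderOf x ∣ 1 := by
      have := Nat.dvd_gcd h1 h2
      rwa [(Nat.Coprime.pow_left k hcop).gcd_eq_one] at this
    exact orderOf_eq_one_iff.1 (Nat.dvd_one.1 h3)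
  by_cases hΛ : Subgroup.normalizer (Q : Set Γ) = ⊤
  · have hQn : Q.Normal := Subgroup.normalizer_eq_top_iff.1 hΛ
    exact hinter V Q hVn hQn hVne hQne hVG hQG hQVbot
  have hcover : ∀ s : Γ, ∃ e ∈ Subgroup.normalizer (Q : Set Γ), e * s⁻¹ ∈ V := by
    intro s
    have hs : s ∈ V ⊔ Subgroup.normalizer (Q : Set Γ) := by rw [sup_comm, hfrat]; trivial
    obtain ⟨y, hy, z, hz, hyz⟩ := Subgroup.mem_sup_of_normal_left.1 hs
    refine ⟨z, hz, ?_⟩
    rw [← hyz]
    simpa using hy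
  obtain ⟨ef, hef, hefV⟩ := hcover f
  obtain ⟨eh, heh, hehV⟩ := hcover h
  obtain ⟨x, hxV, hxf, hxh⟩ := H.rel.exists_conj_pair V
    (H.cop.coprime_dvd_left (Subgroup.card_dvd_of_le hVG)) _ ef eh hef hefV heh hehV
  have H' : FS3 G (x * f * x⁻¹) (x * h * x⁻¹) := H.conj x
  have hgen' : G ⊔ Subgroup.closure {x * f * x⁻¹, x * h * x⁻¹} = ⊤ := by
    obtain ⟨B, hB⟩ : ∃ B, B = G ⊔ Subgroup.closure {x * f * x⁻¹, x * h * x⁻¹} := ⟨_, rfl⟩
    rw [← hB, eq_top_iff, ← hgen]
    have hGB : G ≤ B := by rw [hB]; exact le_sup_left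
    have hxB : x ∈ B := hGB (hVG hxV)
    have hback : ∀ s : Γ, x * s * x⁻¹ ∈ B → s ∈ B := by
      intro s hs
      have : s = x⁻¹ * (x * s * x⁻¹) * x := by group
      rw [this]
      exact B.mul_mem (B.mul_mem (B.inv_mem hxB) hs) hxB
    refine sup_le hGB ?_
    rw [Subgroup.closure_le]
    rintro s (rfl | rfl)
    · exact hback _ (by rw [hB]; exact (le_sup_right : _ ≤ G ⊔ _) (Subgroup.subset_closure (by simp)))
    · exact hback _ (by rw [hB]; exact (le_sup_right : _ ≤ G ⊔ _) (Subgroup.subset_closure (by simp)))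
  have hsubnil : Group.IsNilpotent ↥⁅G.subgroupOf (Subgroup.normalizer (Q : Set Γ)),
      G.subgroupOf (Subgroup.normalizer (Q : Set Γ))⁆ := by
    refine ih (Nat.card (Subgroup.normalizer (Q : Set Γ))) ?_ (Subgroup.normalizer (Q : Set Γ)) _
      ⟨_, hxf⟩ ⟨_, hxh⟩ rfl (H'.subgroupOf _ hxf hxh) (hsubsol _)
    rw [← hn]
    have := card_lt_of_lt (lt_top_iff_ne_top.2 hΛ)
    rwa [Subgroup.card_top] at this
  have hcent := H'.commutator_centralizes hgen' hsol r hr V hVn hVne hVG hVab hVr hVmin _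
    (by rw [sup_comm]; exact hfrat) hxf hxh hsubnil
  apply hΛ
  rw [eq_top_iff, ← hfrat]
  refine sup_le le_rfl ?_
  refine le_trans ?_ (Subgroup.centralizer_le_normalizer _)
  intro v hv
  rw [Subgroup.mem_centralizer_iff]
  intro y hy
  obtain ⟨k, hk, w, hw, rfl⟩ := Subgroup.mem_sup_of_normal_right.1 (hQK hy)
  calc k * w * v = k * (w * v) := by group
    _ = k * (v * w) := by rw [hVab w hw v hv]
    _ = (k * v) * w := by group
    _ = (v * k) * w := by rw [hcent k hk v hv]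
    _ = v * (k * w) := by group

open SemidirectProduct in
/-- A finite solvable group of order prime to `6` on which the symmetric group of degree `3` acts
without nontrivial common fixed points has nilpotent derived subgroup. -/
theorem isNilpotent_commutator_of_fpf_S3 {G : Type u} [Group G] [Finite G]
    (hG : Group.IsSolvable G) [MulDistribMulAction (Equiv.Perm (Fin 3)) G]
    (hcop : (Nat.card G).Coprime 6)
    (hfpf : ∀ g : G, (∀ a : Equiv.Perm (Fin 3), a • g = g) → g = 1) :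
    Group.IsNilpotent (commutator G) := by
  let φ : Equiv.Perm (Fin 3) →* MulAut G := MulDistribMulAction.toMulAut (Equiv.Perm (Fin 3)) G
  have hfin : Finite (G ⋊[φ] Equiv.Perm (Fin 3)) := Finite.of_equiv _ (equivProd (φ := φ)).symm
  let H : Subgroup (G ⋊[φ] Equiv.Perm (Fin 3)) := (inl : G →* G ⋊[φ] Equiv.Perm (Fin 3)).range
  have hHn : H.Normal := by
    change ((inl : G →* G ⋊[φ] Equiv.Perm (Fin 3)).range).Normal
    rw [range_inl_eq_ker_rightHom]; infer_instance
  let c : Equiv.Perm (Fin 3) := Equiv.swap 0 1 * Equiv.swap 1 2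
  let s : Equiv.Perm (Fin 3) := Equiv.swap 0 1
  have hrel : S3Rel c s := ⟨by decide, by decide, by decide⟩
  have hall : ∀ a : Equiv.Perm (Fin 3), a = 1 ∨ a = c ∨ a = c * c ∨ a = s ∨ a = c * s
      ∨ a = c * c * s := by decide
  have hF : FS3 H (inr c) (inr s) := by
    refine ⟨hHn, hrel.map _, ?_, ?_⟩
    · have : Nat.card H = Nat.card G :=
        (Nat.card_congr (MonoidHom.ofInjective (f := (inl : G →* G ⋊[φ] Equiv.Perm (Fin 3)))
          inl_injective).toEquiv).symm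
      rw [this]; exact hcop
    · rintro _ ⟨a, rfl⟩ hc1 hc2
      have key : ∀ t : Equiv.Perm (Fin 3),
          (inr t : G ⋊[φ] Equiv.Perm (Fin 3)) * inl a = inl a * inr t → t • a = a := by
        intro t hcomm
        have h1 : (inl (φ t a) : G ⋊[φ] Equiv.Perm (Fin 3)) = inl a := by
          rw [inl_aut, hcomm, map_inv]; group
        exact inl_injective h1
      have k1 := key c hc1
      have k2 := key s hc2
      rw [hfpf a ?_, map_one]
      intro t
      rcases hall t with rfl | rfl | rfl | rfl | rfl | rfl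
      · exact one_smul _ a
      · exact k1
      · rw [mul_smul, k1, k1]
      · exact k2
      · rw [mul_smul, k2, k1]
      · rw [mul_smul, mul_smul, k2, k1, k1]
  have hsol : Group.IsSolvable H :=
    Group.isSolvable_of_surjective
      (inl : G →* G ⋊[φ] Equiv.Perm (Fin 3)).rangeRestrict_surjective
  have hnil := FS3.isNilpotent_aux _ _ H (inr c) (inr s) rfl hF hsol
  have hmem : ∀ x : commutator G, (inl (x : G) : G ⋊[φ] Equiv.Perm (Fin 3)) ∈ ⁅H, H⁆ := by
    intro x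
    have h1 : (commutator G).map (inl : G →* G ⋊[φ] Equiv.Perm (Fin 3)) = ⁅H, H⁆ := by
      rw [commutator_def, Subgroup.map_commutator, ← MonoidHom.range_eq_map]
    rw [← h1]
    exact ⟨x, x.2, rfl⟩
  exact isNilpotent_of_injective
    (((inl : G →* G ⋊[φ] Equiv.Perm (Fin 3)).comp (commutator G).subtype).codRestrict ⁅H, H⁆ hmem)
    (fun x y hxy => Subtype.ext (inl_injective (congrArg Subtype.val hxy))) hnil

end Cfsg.Agent.Lib.Helper74
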